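import Cfsg.Agent.Class.PSL2Subfield

/-! Sets of transvections of a plane in characteristic two: Dickson's theorem in coordinates. -/

set_option autoImplicit false

namespace Cfsg.Lib.Class.Sp4E

open Matrix P1
open scoped MatrixGroups

variable {F : Type*} [Field F] [CharP F 2]

theorem exists_sqrt [Finite F] (c : F) : ∃ s : F, s ^ 2 = c :=
  (frobeniusEquiv F 2).surjective c

theorem eq_of_sq_eq {x y : F} (h : x ^ 2 = y ^ 2) : x = y :=
  (frobenius F 2).injective h

theorem mem_of_sq_mem [Finite F] {F₀ : Subfield F} {x : F} (h : x ^ 2 ∈ F₀) : x ∈ F₀ := by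
  obtain ⟨y, hy⟩ := exists_sqrt (F := F₀) ⟨_, h⟩
  have : (y : F) ^ 2 = x ^ 2 := congrArg Subtype.val hy
  exact eq_of_sq_eq this ▸ y.2

/-- The action of a `2 × 2` matrix on pairs. -/
def act (a b c d : F) (x : F × F) : F × F := (a * x.1 + b * x.2, c * x.1 + d * x.2)

/-- The projective image of the stabiliser of a set of vectors in `SL₂`. -/
def stabP (S : Set (F × F)) : Subgroup PGL(2, F) where
  carrier := {g | ∃ (a b c d : F) (h : a * d - b * c = 1),
    g = mob a b c d (by rw [h]; exact one_ne_zero) ∧ ∀ x, act a b c d x ∈ S ↔ x ∈ S}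
  one_mem' := ⟨1, 0, 0, 1, by simp, mob_one.symm, fun x => by simp [act]⟩
  mul_mem' := by
    rintro _ _ ⟨a, b, c, d, h, rfl, hS⟩ ⟨a', b', c', d', h', rfl, hS'⟩
    refine ⟨a * a' + b * c', a * b' + b * d', c * a' + d * c', c * b' + d * d',
      by linear_combination (a' * d' - b' * c') * h + h', mob_mul _ _, fun x => ?_⟩
    rw [← hS' x, ← hS (act a' b' c' d' x)]
    refine Iff.of_eq (congrArg (· ∈ S) (Prod.ext ?_ ?_)) <;> simp only [act] <;> ring
  inv_mem' := by
    rintro _ ⟨a, b, c, d, h, rfl, hS⟩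
    refine ⟨d, -b, -c, a, by linear_combination h, mob_inv _, fun x => ?_⟩
    rw [← hS]
    refine Iff.of_eq (congrArg (· ∈ S) (Prod.ext ?_ ?_)) <;> simp only [act]
    · linear_combination x.1 * h
    · linear_combination x.2 * h

theorem tv_det (l : F) (y : F × F) :
    (1 + l * y.1 * y.2) * (1 + l * y.1 * y.2) - l * y.1 ^ 2 * (l * y.2 ^ 2) = 1 := by
  grind

/-- The transvection with centre `y` in the projective group. -/
def tvP (l : F) (y : F × F) : PGL(2, F) :=
  mob (1 + l * y.1 * y.2) (l * y.1 ^ 2) (l * y.2 ^ 2) (1 + l * y.1 * y.2)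
    (by rw [tv_det]; exact one_ne_zero)

theorem mem_of_conj_tvP [Finite F] {F₀ : Subfield F} {l : F} {y : F × F} {p q r s : F}
    (h : p * s - q * r ≠ 0) (hm : (mob p q r s h)⁻¹ * tvP l y * mob p q r s h ∈ pglSub F₀) :
    l * (s * y.1 + q * y.2) ^ 2 / (p * s - q * r) ∈ F₀ ∧
      l * (r * y.1 + p * y.2) ^ 2 / (p * s - q * r) ∈ F₀ := by
  obtain ⟨a, b, c, d, h', ha, hb, hc, hd, e⟩ := mem_pglSub_iff.1 hm
  rw [tvP, mob_inv, mob_mul, mob_mul, eq_comm, mob_eq_mob_iff] at e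
  obtain ⟨u, hu, e1, e2, e3, e4⟩ := e
  have hD : ((p * s - q * r) / u) ^ 2 = a * d - b * c := by
    rw [div_pow, div_eq_iff (pow_ne_zero 2 hu)]
    have : (a * d - b * c) * u ^ 2 = a * u * (d * u) - b * u * (c * u) := by ring
    rw [this, ← e1, ← e2, ← e3, ← e4]
    grind
  have hm := mem_of_sq_mem (F₀ := F₀) (hD ▸ sub_mem (mul_mem ha hd) (mul_mem hb hc))
  constructor
  · have : l * (s * y.1 + q * y.2) ^ 2 / (p * s - q * r) = b / ((p * s - q * r) / u) := by
      rw [div_div_eq_mul_div, ← e2]; congr 1; grind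
    exact this ▸ div_mem hb hm
  · have : l * (r * y.1 + p * y.2) ^ 2 / (p * s - q * r) = c / ((p * s - q * r) / u) := by
      rw [div_div_eq_mul_div, ← e3]; congr 1; grind
    exact this ▸ div_mem hc hm

/-- A set of non-zero vectors of the plane closed under its own transvections lies on a conic or is
a subplane. -/
theorem dickson_tv [Finite F] {l : F} (hl : l ≠ 0) {S : Set (F × F)} (h0 : (0, 0) ∉ S)
    (h1 : (1, 0) ∈ S) (h2 : (0, 1) ∈ S)
    (cl : ∀ x ∈ S, ∀ y ∈ S, (x.1 + l * (x.1 * y.2 + x.2 * y.1) * y.1,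
      x.2 + l * (x.1 * y.2 + x.2 * y.1) * y.2) ∈ S) :
    (∀ x ∈ S, x.1 ^ 2 + x.2 ^ 2 + l * x.1 * x.2 = 1) ∨
      ∃ F₀ : Subfield F, 3 ≤ Nat.card F₀ ∧ l ∈ F₀ ∧
        ∀ x, x ∈ S ↔ x ≠ (0, 0) ∧ x.1 ∈ F₀ ∧ x.2 ∈ F₀ := by
  have hT : ∀ y ∈ S, tvP l y ∈ stabP S := fun y hy => by
    have e : ∀ x : F × F, act (1 + l * y.1 * y.2) (l * y.1 ^ 2) (l * y.2 ^ 2) (1 + l * y.1 * y.2) x =
        (x.1 + l * (x.1 * y.2 + x.2 * y.1) * y.1, x.2 + l * (x.1 * y.2 + x.2 * y.1) * y.2) :=
      fun x => Prod.ext (by simp only [act]; ring) (by simp only [act]; ring)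
    refine ⟨_, _, _, _, tv_det l y, rfl, fun x => ⟨fun h => ?_, fun h => e x ▸ cl x h y hy⟩⟩
    have := cl _ h y hy
    rw [e] at this
    convert this using 1
    refine Prod.ext ?_ ?_ <;> simp only <;> grind
  have hne : tvP l ((1, 0) : F × F) ≠ 1 := by
    rw [tvP, Ne, mob_eq_one_iff]; simp [hl]
  rcases dickson_pgl 2 (stabP S) with ⟨x, hx⟩ | ⟨x, y, hxy, -, h⟩ | ⟨h, -⟩ | ⟨h, -⟩ |
    ⟨F₀, c, h3, hc⟩
  · exfalso
    have a1 := hx _ (hT _ h1)
    have a2 := hx _ (hT _ h2)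
    rcases eq_inf_or_eq_pt x with rfl | ⟨t, rfl⟩
    · rw [tvP, mob_smul_inf_eq_inf_iff] at a2; simp [hl] at a2
    · rw [tvP, mob_smul_pt_eq_pt_iff] at a1; simp [hl] at a1
  · left
    induction x using Projectivization.ind with | h u hu => ?_
    induction y using Projectivization.ind with | h v hv => ?_
    rw [Ne, mk_eq_mk_iff_det] at hxy
    set φ := algebraMap F (Kb F)
    have hφ : Function.Injective φ := φ.injective
    haveI : CharP (Kb F) 2 := charP_of_injective_algebraMap hφ 2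
    have key : ∀ z ∈ S, u 0 * v 1 + u 1 * v 0 =
        φ l * (u 0 * φ z.2 + u 1 * φ z.1) * (φ z.1 * v 1 + φ z.2 * v 0) := fun z hz => by
      have hl' : φ l ≠ 0 := (map_ne_zero φ).2 hl
      have hz0 : φ z.1 ≠ 0 ∨ φ z.2 ≠ 0 := by
        by_contra hc
        push Not at hc
        exact h0 (by rwa [← (map_eq_zero φ).1 hc.1, (map_eq_zero φ).1 hc.1 ,
          ← show z = (0, 0) from Prod.ext ((map_eq_zero φ).1 hc.1) ((map_eq_zero φ).1 hc.2)])
      rcases h _ (hT z hz) with ⟨a1, a2⟩ | ⟨a1, -⟩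
      · exfalso
        rw [tvP, map_mob, mob_smul_mk_eq_mk_iff] at a1 a2
        simp only [map_add, map_mul, map_one, map_pow] at a1 a2
        have b1 : u 0 * φ z.2 + u 1 * φ z.1 = 0 := by
          refine pow_eq_zero_iff (n := 2) two_ne_zero |>.1 (mul_left_cancel₀ hl' ?_); grind
        have b2 : v 0 * φ z.2 + v 1 * φ z.1 = 0 := by
          refine pow_eq_zero_iff (n := 2) two_ne_zero |>.1 (mul_left_cancel₀ hl' ?_); grind
        rcases hz0 with hz0 | hz0 <;> exact hxy (mul_left_cancel₀ hz0 (by grind))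
      · rw [tvP, map_mob, mob_smul_mk_eq_mk_iff] at a1
        simp only [map_add, map_mul, map_one, map_pow] at a1
        grind
    intro z hz
    have k1 := key _ h1
    have k2 := key _ h2
    have k3 := key _ hz
    simp only [map_one, map_zero] at k1 k2
    apply hφ
    simp only [map_add, map_mul, map_one, map_pow]
    have hΔ : u 0 * v 1 + u 1 * v 0 ≠ 0 := fun e => hxy (by grind)
    exact mul_left_cancel₀ hΔ (by grind)
  · exfalso
    refine h ?_
    have : orderOf (⟨_, hT _ h1⟩ : stabP S) = 2 := by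
      refine orderOf_eq_prime (Subtype.ext ?_) fun e => hne (congrArg Subtype.val e)
      change tvP l (1, 0) ^ 2 = 1
      rw [sq, tvP, mob_mul, mob_eq_one_iff]
      grind
    exact this.symm.dvd.trans (orderOf_dvd_natCard _)
  · omega
  · right
    rw [pslSub_eq_pglSub_of_char_two (by simp [CharTwo.two_eq_zero]), or_self] at hc
    obtain ⟨p, q, r, s, h, rfl⟩ := exists_mob c
    have hm : ∀ y ∈ S, _ := fun y hy =>
      mem_of_conj_tvP (l := l) (y := y) h ((mem_map_conj_iff _ _ _).1 (hc ▸ hT y hy))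
    obtain ⟨m, hmm⟩ := exists_sqrt (l / (p * s - q * r))
    have hsq : ∀ t, l * t ^ 2 / (p * s - q * r) ∈ F₀ → m * t ∈ F₀ := fun t ht =>
      mem_of_sq_mem (by rwa [mul_pow, hmm, div_mul_eq_mul_div])
    have hs := hsq s (by simpa using (hm _ h1).1)
    have hr := hsq r (by simpa using (hm _ h1).2)
    have hq := hsq q (by simpa using (hm _ h2).1)
    have hp := hsq p (by simpa using (hm _ h2).2)
    have hdet : m * p * (m * s) - m * q * (m * r) = l := by
      rw [← div_mul_cancel₀ l h, ← hmm]; ring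
    have hlF : l ∈ F₀ := hdet ▸ sub_mem (mul_mem hp hs) (mul_mem hq hr)
    have hm0 : m ≠ 0 := fun e => hl (by rw [← hdet, e]; ring)
    have hcm : mob p q r s h ∈ pglSub F₀ := by
      rw [mob_congr h (hdet ▸ hl : m * p * (m * s) - m * q * (m * r) ≠ 0) m hm0 (mul_comm _ _)
        (mul_comm _ _) (mul_comm _ _) (mul_comm _ _)]
      exact mob_mem_pglSub _ hp hq hr hs
    have hH : ∀ g, g ∈ stabP S ↔ g ∈ pglSub F₀ := fun g => by
      rw [hc, mem_map_conj_iff, mul_mem_cancel_right hcm, mul_mem_cancel_left (inv_mem hcm)]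
    refine ⟨F₀, h3, hlF, fun x => ⟨fun hx => ⟨fun e => h0 (e ▸ hx), ?_⟩, fun ⟨hx, a1, a2⟩ => ?_⟩⟩
    · have := mem_of_conj_tvP (F₀ := F₀) (l := l) (y := x) (p := 1) (q := 0) (r := 0) (s := 1)
        (by simp) (by rw [mob_one]; simpa using (hH _).1 (hT x hx))
      simp only [one_mul, zero_mul, add_zero, zero_add, mul_zero, sub_zero, div_one] at this
      have k : ∀ t, l * t ^ 2 ∈ F₀ → t ∈ F₀ := fun t ht => mem_of_sq_mem (by
        simpa [hl] using mul_mem (inv_mem hlF) ht)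
      exact ⟨k _ this.1, k _ this.2⟩
    · obtain ⟨b, d, hb, hd, hbd⟩ : ∃ b d, b ∈ F₀ ∧ d ∈ F₀ ∧ x.1 * d - b * x.2 = 1 := by
        by_cases e : x.1 = 0
        · have e' : x.2 ≠ 0 := fun e' => hx (Prod.ext e e')
          exact ⟨-x.2⁻¹, 0, neg_mem (inv_mem a2), zero_mem _, by field_simp; simp⟩
        · exact ⟨0, x.1⁻¹, zero_mem _, inv_mem a1, by field_simp; simp⟩
      obtain ⟨a', b', c', d', h', e, hS⟩ :=
        (hH _).2 (mob_mem_pglSub (by rw [hbd]; exact one_ne_zero) a1 hb a2 hd)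
      obtain ⟨u, -, e1, e2, e3, e4⟩ := (mob_eq_mob_iff _ _).1 e
      have hu : u = 1 := eq_of_sq_eq (by
        rw [e1, e2, e3, e4] at h'; linear_combination h' - u ^ 2 * hbd)
      have := (hS (1, 0)).2 h1
      simpa [act, e1, e3, hu] using this

end Cfsg.Lib.Class.Sp4E
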