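import Cfsg.Agent.Class.Sp4E.Tv

/-! Involutions of `Sp₄(q)`, `q` even, and simple subgroups containing transvections. -/

set_option autoImplicit false

namespace Cfsg.Lib.Class.Sp4E

open Module Ev

variable {F V : Type*} [Field F] [AddCommGroup V] [Module F V] [CharP F 2]
  {B : LinearMap.BilinForm F V} {L : Subgroup (V ≃ₗ[F] V)} [FiniteDimensional F V]

omit [CharP F 2] [FiniteDimensional F V] in
theorem le_of_conj [IsSimpleGroup L] {K : Subgroup (V ≃ₗ[F] V)} {t : V ≃ₗ[F] V} (ht : t ∈ L)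
    (t1 : t ≠ 1) (h : ∀ g ∈ L, g * t * g⁻¹ ∈ K) : L ≤ K := by
  have hN : (K.subgroupOf L).normalCore = ⊤ :=
    (Subgroup.normalCore_normal _).eq_bot_or_eq_top.resolve_left fun e => t1 (by
      have : (⟨t, ht⟩ : L) ∈ (K.subgroupOf L).normalCore := fun g => h g g.2
      rw [e] at this
      exact congrArg Subtype.val this)
  exact fun g hg => (K.subgroupOf L).normalCore_le (hN.ge (Subgroup.mem_top (⟨g, hg⟩ : L)))

omit [CharP F 2] [FiniteDimensional F V] in
theorem T.exists' (nd : B.Nondegenerate) (hle : L ≤ SpB B) {a : V} (h : T B L a) :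
    ∃ t ∈ L, t ≠ 1 ∧ ∀ g ∈ L, ∀ z, (g * t * g⁻¹) z = z + B z (g a) • g a := by
  obtain ⟨t, ht, H⟩ := h.exists
  refine ⟨t, ht, fun e => ?_, fun g hg z => ?_⟩
  · refine h.1 (nd.2 a fun z => ?_)
    simpa [e, h.1] using H z
  · obtain ⟨z, rfl⟩ := g.surjective z
    simp [H, hle hg z a]

omit [CharP F 2] in
theorem gen_of_simple [IsSimpleGroup L] (C : Ctx B L) {a : V} (h : T B L a) : Gen B L := by
  obtain ⟨t, ht, t1, H⟩ := h.exists' C.nd C.le
  refine fun W hW => C.irr W fun g hg => mem_stabSub.1 (le_of_conj ht t1 (fun g hg => ?_) hg)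
  exact mem_stabSub.2 fun w hw => H g hg w ▸ hW _ (h.conj C hg) w hw

omit [CharP F 2] in
theorem ctx_or_fix [IsSimpleGroup L] (nd : B.Nondegenerate) (alt : B.IsAlt) (hle : L ≤ SpB B)
    {a : V} (h : T B L a) : Ctx B L ∨ ∃ r, r ≠ 0 ∧ ∀ g ∈ L, g r = r := by
  obtain ⟨t, ht, t1, H⟩ := h.exists' nd hle
  have key : ∀ r, (∀ g ∈ L, B r (g a) = 0) → ∀ g ∈ L, g r = r := fun r hr g hg =>
    le_of_conj (K := MulAction.stabilizer _ r) ht t1 (fun g hg => by
      change (g * t * g⁻¹) r = r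
      rw [H g hg, hr g hg, zero_smul, add_zero]) hg
  by_contra! hc
  refine hc.1 ⟨nd, alt, hle, fun W hW => ?_⟩
  by_contra! hW'
  by_cases c : ∀ w ∈ W, B w a = 0
  · obtain ⟨r, hr, r0⟩ := (Submodule.ne_bot_iff W).1 hW'.1
    obtain ⟨g, hg, h1⟩ := hc.2 r r0
    exact h1 (key r (fun g hg => by
      rw [← SpB_symm_left (hle hg)]; exact c _ (hW _ (inv_mem hg) r hr)) g hg)
  · push Not at c
    obtain ⟨w, hw, hwa⟩ := c
    have ha : a ∈ W := by
      have := W.sub_mem (hW _ (mul_mem (mul_mem (one_mem _) ht) (inv_mem (one_mem _))) w hw) hw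
      rw [H 1 (one_mem _), add_sub_cancel_left] at this
      simpa [hwa] using W.smul_mem (B w a)⁻¹ this
    obtain ⟨r, hr, r0⟩ := (Submodule.ne_bot_iff (B.orthogonal W)).1 (fun e => hW'.2 (by
      rw [← LinearMap.BilinForm.orthogonal_orthogonal nd alt.isRefl W, e]; simp))
    obtain ⟨g, hg, h1⟩ := hc.2 r r0
    exact h1 (key r (fun g hg => alt_eq_zero_comm alt (hr _ (hW g hg a ha))) g hg)

theorem not_le_O [IsSimpleGroup L] (hc : ¬ IsMulCommutative L) (C : Ctx B L)
    (hn : finrank F V = 4) {a : V} (h : T B L a) {Q : QuadraticForm F V}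
    (hp : ∀ u v, QuadraticMap.polar Q u v = B u v) : ¬ L ≤ Orth.O Q := fun hL => by
  have hQ : (QuadraticMap.polarBilin Q).Nondegenerate := by
    rw [show QuadraticMap.polarBilin Q = B from LinearMap.ext₂ hp]; exact C.nd
  obtain ⟨t, ht, H⟩ := h.exists
  obtain ⟨b, hb⟩ := exists_alt_eq_one C.nd h.1
  rw [C.sym] at hb
  have ha : Q a = 1 := by
    have := Orth.mem_O.1 (hL ht) b
    rw [H, hb, one_smul, QuadraticMap.map_add Q, hp, hb] at this
    grind
  let φ := (dickHom' hQ (by omega)).comp (Subgroup.inclusion hL)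
  rcases φ.normal_ker.eq_bot_or_eq_top with e | e
  · have := φ.ker_eq_bot_iff.1 e
    exact hc ⟨⟨fun x y => this (by rw [map_mul, map_mul, mul_comm])⟩⟩
  · have h1 : φ ⟨t, ht⟩ = 1 := φ.mem_ker.1 (e.ge (Subgroup.mem_top _))
    have : Orth.dick (⟨t, hL ht⟩ : Orth.O Q) = 1 := h1
    rw [show (⟨t, hL ht⟩ : Orth.O Q) = Orth.refl Q a from Orth.O_ext fun v => by
      rw [Orth.refl_apply, ha, hp, inv_one, one_mul, sub_eq_add_neg, ← neg_smul, CharTwo.neg_eq]
      exact H v, Orth.dick_refl hQ (by simp [ha])] at this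
    exact absurd this (by decide)

omit [CharP F 2] in
theorem mem_of_mulVec {F₀ : Subfield F} {G : Matrix (Fin 4) (Fin 4) F} (hG : ∀ i j, G i j ∈ F₀)
    (hd : G.det ≠ 0) {c : Fin 4 → F} (h : ∀ i, G.mulVec c i ∈ F₀) (i : Fin 4) : c i ∈ F₀ := by
  let G₀ : Matrix (Fin 4) (Fin 4) F₀ := fun i j => ⟨_, hG i j⟩
  have e : F₀.subtype.mapMatrix G₀ = G := rfl
  have hd₀ : G₀.det ≠ 0 := fun h0 => hd (by rw [← e, ← RingHom.map_det, h0, map_zero])
  let c₀ := G₀⁻¹.mulVec fun i => (⟨_, h i⟩ : F₀)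
  have h1 : G₀.mulVec c₀ = fun i => (⟨_, h i⟩ : F₀) := by
    rw [Matrix.mulVec_mulVec, Matrix.mul_nonsing_inv _ (Ne.isUnit hd₀), Matrix.one_mulVec]
  have h2 : G.mulVec (F₀.subtype ∘ c₀) = G.mulVec c := funext fun i => by
    rw [← e, RingHom.mapMatrix_apply, ← RingHom.map_mulVec, h1]; rfl
  rw [← Matrix.mulVec_injective_iff_isUnit.2 ((Matrix.isUnit_iff_isUnit_det G).2 hd.isUnit) h2]
  exact (c₀ i).2

omit [CharP F 2] in
theorem exists_basis_T (C : Ctx B L) (hn : finrank F V = 4) {a : V} (h : T B L a) :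
    ∃ b : Basis (Fin 4) F V, ∀ i, T B L (b i) := by
  have hs : Submodule.span F {x | T B L x} = ⊤ :=
    (C.irr _ fun g hg w hw => by
      have : (Submodule.span F {x | T B L x}).map (g : V →ₗ[F] V) ≤ Submodule.span F {x | T B L x} := by
        rw [Submodule.map_span]
        exact Submodule.span_mono (by rintro _ ⟨x, hx, rfl⟩; exact T.conj C hg hx)
      exact this ⟨w, hw, rfl⟩).resolve_left fun e => h.1 (Submodule.span_eq_bot.1 e a h)
  obtain ⟨s, hsT, hsp, hli⟩ := exists_linearIndependent F {x | T B L x}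
  have hsp' : ⊤ ≤ Submodule.span F (Set.range ((↑) : s → V)) := by
    rw [Subtype.range_coe, hsp, hs]
  haveI : Fintype s := FiniteDimensional.fintypeBasisIndex (Basis.mk hli hsp')
  refine ⟨(Basis.mk hli hsp').reindex
    (Fintype.equivFinOfCardEq ((finrank_eq_card_basis (Basis.mk hli hsp')).symm.trans hn)), fun i => ?_⟩
  rw [Basis.reindex_apply, Basis.mk_apply]
  exact hsT (Subtype.coe_prop _)

omit [CharP F 2] in
theorem exists_basis_of_mem (C : Ctx B L) (hn : finrank F V = 4) {a : V} (h : T B L a)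
    {F₀ : Subfield F} (hF : ∀ x y, T B L x → T B L y → B x y ∈ F₀) :
    ∃ b : Basis (Fin 4) F V, ∀ g ∈ L, ∀ i j, LinearMap.toMatrix b b (g : V →ₗ[F] V) i j ∈ F₀ := by
  obtain ⟨b, hb⟩ := exists_basis_T C hn h
  refine ⟨b, fun g hg i j => ?_⟩
  rw [LinearMap.toMatrix_apply]
  refine mem_of_mulVec (G := LinearMap.BilinForm.toMatrix b B) (c := b.repr (g (b j)))
    (fun i j => by rw [LinearMap.BilinForm.toMatrix_apply]; exact hF _ _ (hb i) (hb j))
    ((LinearMap.BilinForm.nondegenerate_iff_det_ne_zero b).1 C.nd) (fun k => ?_) i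
  have := hF _ _ (hb k) (T.conj C hg (hb j))
  rw [← b.sum_repr (g (b j)), map_sum] at this
  simpa [Matrix.mulVec, dotProduct, mul_comm] using this

theorem mem_pair (C : Ctx B L) (hn : finrank F V = 4) {a m z : V} (ha : a ≠ 0)
    (hm : m ∉ Submodule.span F {a}) (hma : B m a = 0) (h1 : B z a = 0) (h2 : B z m = 0) :
    ∃ α γ : F, z = α • m + γ • a := by
  obtain ⟨y, hy, hym⟩ := C.exists_orth hm 1
  obtain ⟨α, β, γ, rfl⟩ := span_four C hn (a := m) (b := y) (by simp [C.sym m y, hym]) ha hma hy h1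
  obtain rfl : β = 0 := by simpa [C.self, hym, C.sym a m, hma] using h2
  exact ⟨α, γ, by simp⟩

/-- `t` is the element of the radical of the stabiliser of `a` with parameters `w`, `c`. -/
def E (B : LinearMap.BilinForm F V) (t : V ≃ₗ[F] V) (a w : V) (c : F) : Prop :=
  ∀ z, t z = z + B z a • w + (B z w + c * B z a) • a

section Invol

variable (C : Ctx B L) {t : V ≃ₗ[F] V} (ht : t ∈ SpB B) (h2 : t * t = 1)
include C ht h2

omit [CharP F 2] [FiniteDimensional F V] C ht in
theorem inv_inv' (x : V) : t (t x) = x := by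
  rw [← LinearEquiv.mul_apply, h2]; rfl

omit [CharP F 2] [FiniteDimensional F V] C in
theorem inv_adj (x y : V) : B (t x) y = B x (t y) := by
  rw [← mem_SpB.1 ht x (t y), inv_inv' h2]

theorem exists_centre [Finite F] : ∃ a, ∀ v, B v (t v) = B v a ^ 2 := by
  let φ : Module.Dual F V :=
    { toFun := fun v => (frobeniusEquiv F 2).symm (B v (t v))
      map_add' := fun x y => (frobeniusEquiv F 2).injective (by
        simp only [map_add, RingEquiv.apply_symm_apply, LinearMap.add_apply,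
          ← inv_adj ht h2 y x, C.sym (t y) x]
        grind)
      map_smul' := fun c x => (frobeniusEquiv F 2).injective (by
        simp only [map_smul, LinearMap.smul_apply, smul_eq_mul, RingHom.id_apply, map_mul,
          RingEquiv.apply_symm_apply, frobeniusEquiv_apply, frobenius_def]
        ring) }
  refine ⟨(B.toDual C.nd).symm φ, fun v => ?_⟩
  rw [C.sym v (_ : V), C.sym v (_ : V), LinearMap.BilinForm.apply_toDual_symm_apply, C.sym]
  exact ((frobeniusEquiv F 2).apply_symm_apply _).symm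

theorem E_of_centre (hn : finrank F V = 4) {a b : V} {c : F} (ha : a ≠ 0) (hb : B b a = 1)
    (hk : ∀ v, t v = v → B v a = 0) (hq : ∀ v, B v (t v) = c * B v a ^ 2) :
    B (t b + b) a = 0 ∧ E B t a (t b + b) c := by
  have hN : ∀ x, t (t x + x) = t x + x := fun x => by rw [map_add, inv_inv' h2, add_comm]
  have adj : ∀ x y, B (t x + x) y = B x (t y + y) := fun x y => by
    simp [inv_adj ht h2]
  have hta : t a + a = 0 := C.nd.1 _ fun y => by rw [adj, C.sym, hk _ (hN y)]
  refine ⟨hk _ (hN b), fun z => ?_⟩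
  have key : ∀ z, B z a = 0 → t z + z = B z (t b + b) • a := fun z hz => by
    have hm : t z + z ∈ Submodule.span F {a} := by
      by_contra hm
      obtain ⟨α, γ, e⟩ := mem_pair C hn ha hm (hk _ (hN z)) hz (by simp [hq, hz, C.self])
      refine hm ?_
      have : t z + z = α • (t (t z + z) + (t z + z)) + γ • (t a + a) := by
        conv_lhs => rw [e]
        simp only [map_add, map_smul]; module
      rw [this, hN, vadd_self _ F, hta]; simp
    obtain ⟨s, hs⟩ := Submodule.mem_span_singleton.1 hm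
    rw [← adj, ← hs]; simp [C.sym a b, hb]
  have := key (z + B z a • b) (by simp [hb, CharTwo.add_self_eq_zero])
  simp only [map_add, map_smul, LinearMap.add_apply, LinearMap.smul_apply, smul_eq_mul, hq, hb,
    C.self] at this ⊢
  rw [← sub_eq_zero] at this ⊢
  rw [← this]
  match_scalars <;> grind

end Invol

theorem inv_cases [Finite F] (C : Ctx B L) (hn : finrank F V = 4) {t : V ≃ₗ[F] V} (ht : t ∈ L)
    (h2 : t * t = 1) (t1 : t ≠ 1) : (∃ a, T B L a) ∨ ∃ a w c, a ≠ 0 ∧ B w a = 0 ∧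
      w ∉ Submodule.span F {a} ∧ (c = 0 ∨ c = 1) ∧ E B t a w c := by
  obtain ⟨a, ha⟩ := exists_centre C (C.le ht) h2
  rcases eq_or_ne a 0 with rfl | a0
  · obtain ⟨x, hx⟩ : ∃ x, t x + x ≠ 0 := by
      by_contra! h
      exact t1 (LinearEquiv.ext fun x => (eq_neg_of_add_eq_zero_left (h x)).trans
        (neg_eq_of_add_eq_zero_left (vadd_self x F)))
    obtain ⟨b, hb⟩ := exists_alt_eq_one C.nd hx
    rw [C.sym] at hb
    obtain ⟨h0, hE⟩ := E_of_centre C (C.le ht) h2 hn (c := 0) hx hb (fun v hv => by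
      rw [map_add, ← inv_adj (C.le ht) h2, hv, CharTwo.add_self_eq_zero]) (by simpa using ha)
    refine Or.inr ⟨_, _, 0, hx, h0, fun hm => t1 (LinearEquiv.ext fun z => ?_), Or.inl rfl, hE⟩
    obtain ⟨s, hs⟩ := Submodule.mem_span_singleton.1 hm
    rw [hE, ← hs, map_smul]
    generalize t x + x = u
    simp only [smul_eq_mul, LinearEquiv.coe_one, id]
    match_scalars <;> grind
  · obtain ⟨b, hb⟩ := exists_alt_eq_one C.nd a0
    rw [C.sym] at hb
    obtain ⟨h0, hE⟩ := E_of_centre C (C.le ht) h2 hn (c := 1) a0 hb (fun v hv => by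
      simpa [hv, C.self] using (ha v).symm) (by simpa using ha)
    by_cases hm : t b + b ∈ Submodule.span F {a}
    · obtain ⟨s, hs⟩ := Submodule.mem_span_singleton.1 hm
      refine Or.inl ⟨a, T.mk' a0 ht fun z => ?_⟩
      rw [hE, ← hs, map_smul]
      simp only [smul_eq_mul]
      match_scalars <;> grind
    · exact Or.inr ⟨a, _, 1, a0, h0, hm, Or.inr rfl, hE⟩

omit [FiniteDimensional F V] in
theorem E.form (C : Ctx B L) {t : V ≃ₗ[F] V} {a w : V} {c : F} (h : E B t a w c) (v : V) :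
    B v (t v) = c * B v a ^ 2 := by
  rw [h]; simp only [map_add, map_smul, smul_eq_mul, C.self]; grind

omit [FiniteDimensional F V] in
theorem E.fix (C : Ctx B L) {t g : V ≃ₗ[F] V} {a w : V} (h : E B t a w 1) (hg : g ∈ SpB B)
    (hc : g * t = t * g) : g a = a := by
  have : ∀ v, B (g v) a = B v a := fun v => eq_of_sq_eq (by
    have h1 := h.form C (g v)
    rw [← LinearEquiv.mul_apply, ← hc, LinearEquiv.mul_apply, mem_SpB.1 hg, h.form C] at h1
    simpa using h1.symm)
  refine (sub_eq_zero.1 (C.nd.2 _ fun v => ?_))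
  obtain ⟨v, rfl⟩ := g.surjective v
  rw [map_sub, mem_SpB.1 hg, this, sub_self]

theorem E.pow_four (C : Ctx B L) (hn : finrank F V = 4) {t g : V ≃ₗ[F] V} {a w : V} (ha : a ≠ 0)
    (hw : B w a = 0) (hm : w ∉ Submodule.span F {a}) (h : E B t a w 1) (hg : g ∈ SpB B)
    (hc : g * t = t * g) : g ^ 4 = 1 := by
  have h1 := h.fix C hg hc
  have h2 : ∀ v, B (g v) a = B v a := fun v => by conv_lhs => rw [← h1, mem_SpB.1 hg]
  obtain ⟨b, hb⟩ := exists_alt_eq_one C.nd ha
  rw [C.sym] at hb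
  obtain ⟨s, hs⟩ : ∃ s : F, g w = w + s • a := by
    have := LinearEquiv.congr_fun hc b
    rw [LinearEquiv.mul_apply, LinearEquiv.mul_apply, h, h, h2, hb] at this
    simp only [map_add, map_smul, h1] at this
    refine ⟨B (g b) w - B b w, ?_⟩
    rw [← sub_eq_zero] at this ⊢
    rw [← this]; module
  have s3 : ∀ z, B z a = 0 → ∃ α γ : F, g z + z = α • w + γ • a := fun z hz =>
    mem_pair C hn ha hm hw (by simp [h2, hz]) (by
      have := mem_SpB.1 hg z w
      rw [hs, map_add, map_smul, h2, hz] at this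
      simpa [CharTwo.add_eq_zero] using this)
  ext z
  obtain ⟨α, γ, e⟩ := s3 (g z + z) (by simp [h2, CharTwo.add_self_eq_zero])
  have e1 : g (g z) = z + α • w + γ • a := by
    rw [map_add] at e
    rw [← sub_eq_zero] at e ⊢
    rw [← e]; match_scalars <;> grind
  change g (g (g (g z))) = z
  rw [e1]
  simp only [map_add, map_smul, e1, h1, hs]
  match_scalars <;> grind

end Cfsg.Lib.Class.Sp4E
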