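import Cfsg.Agent.Class.Sp4E.Inv
import Cfsg.Agent.CITCor.NatRing
import Cfsg.Agent.Class.PGL2Sub

/-! Subgroups `SL₂(2ⁿ)` of `Sp₄(q)` all of whose involutions are of type `c₂`. -/

set_option autoImplicit false

namespace Cfsg.Lib.Class.Sp4E

open Module Ev QuadraticMap
open scoped MatrixGroups

variable {F V : Type*} [Field F] [AddCommGroup V] [Module F V] [CharP F 2]
  {B : LinearMap.BilinForm F V} {L : Subgroup (V ≃ₗ[F] V)}

theorem avg {H : Type*} [Group H] [Finite H] (ρ : H →* (V ≃ₗ[F] V)) (hρ : ∀ h, ρ h ∈ SpB B)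
    {S : Subgroup H} (hS : Odd S.index) {Q : QuadraticForm F V} (hp : ∀ u v, polar Q u v = B u v)
    (hQ : ∀ s ∈ S, ∀ v, Q (ρ s v) = Q v) :
    ∃ Q' : QuadraticForm F V, (∀ u v, polar Q' u v = B u v) ∧ (∀ h v, Q' (ρ h v) = Q' v) ∧
      ∀ a, (∀ h, Q (ρ h a) = 0) → Q' a = 0 := by
  haveI := Fintype.ofFinite (H ⧸ S)
  refine ⟨∑ c : H ⧸ S, Q.comp (ρ c.out⁻¹).toLinearMap, fun u v => ?_, fun h v => ?_,
    fun a ha => by simp [-map_inv, ha]⟩
  · have : ∀ g, Q (ρ g (u + v)) - Q (ρ g u) - Q (ρ g v) = B u v := fun g => by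
      rw [map_add, ← mem_SpB.1 (hρ g), ← hp, polar]
    obtain ⟨k, hk⟩ := hS
    simp only [polar, QuadraticMap.sum_apply, comp_apply, LinearEquiv.coe_coe,
      ← Finset.sum_sub_distrib, this, Finset.sum_const, Finset.card_univ, ← Nat.card_eq_fintype_card,
      ← Subgroup.index_eq_card, hk, nsmul_eq_mul]
    simp [CharTwo.two_eq_zero]
  · simp only [QuadraticMap.sum_apply, comp_apply, LinearEquiv.coe_coe]
    rw [← Equiv.sum_comp (MulAction.toPerm h)]
    refine Finset.sum_congr rfl fun c _ => ?_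
    obtain ⟨s, hs⟩ := QuotientGroup.mk_out_eq_mul S (h * c.out)
    rw [MulAction.toPerm_apply, ← MulAction.Quotient.mk_smul_out, smul_eq_mul, hs,
      ← LinearEquiv.mul_apply, ← map_mul, show (h * c.out * s)⁻¹ * h = (s : H)⁻¹ * c.out⁻¹ by group,
      map_mul, LinearEquiv.mul_apply, hQ _ (inv_mem s.2)]

theorem eq_of_vadd (F : Type*) [Field F] [CharP F 2] [Module F V] {x y : V} (h : x + y = 0) :
    x = y := add_right_cancel (h.trans (vadd_self y F).symm)

section E

variable {t t' g : V ≃ₗ[F] V} {a a' w w' : V} {c c' : F}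

omit [CharP F 2] in
theorem E.rescale {s : F} (h : E B t (s • a) w c) : E B t a (s • w) (s ^ 2 * c) := fun z => by
  rw [h]; simp only [map_smul, smul_eq_mul]; module

omit [CharP F 2] in
theorem E.conj (h : E B t a w c) (hg : g ∈ SpB B) : E B (g * t * g⁻¹) (g a) (g w) c := fun z => by
  obtain ⟨z, rfl⟩ := g.surjective z
  simp [h z, mem_SpB.1 hg]

theorem E.mul (C : Ctx B L) (h : E B t a w c) (h' : E B t' a w' c') (hw : B w a = 0)
    (hw' : B w' a = 0) : E B (t * t') a (w + w') (c + c' + B w w') := fun z => by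
  rw [LinearEquiv.mul_apply, h, h']
  simp only [map_add, map_smul, LinearMap.add_apply, LinearMap.smul_apply, smul_eq_mul, hw', C.self,
    C.sym a w, hw, C.sym w' w]
  match_scalars <;> ring

theorem E.centre (C : Ctx B L) (h : E B t a w 1) (h' : E B t a' w' 1) : a = a' :=
  sub_eq_zero.1 (C.nd.2 _ fun v => by
    rw [map_sub, eq_of_sq_eq (x := B v a) (y := B v a') (by
      simpa using (h.form C v).symm.trans (h'.form C v)), sub_self])

theorem E.quad (h : E B t a w c) (hw : B w a = 0) {Q : QuadraticForm F V}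
    (hp : ∀ u v, polar Q u v = B u v) (ha : Q a = 0) (z : V) :
    Q (t z) = Q z + (c + Q w) * B z a ^ 2 := by
  rw [h]
  simp only [QuadraticMap.map_add Q, QuadraticMap.map_smul, hp, map_add, map_smul, ha, hw,
    LinearMap.add_apply, LinearMap.smul_apply, smul_eq_mul]
  grind

omit [CharP F 2] in
theorem E.of_fix (h : E B t a w c) (ha : a ≠ 0) (hm : w ∉ Submodule.span F {a}) {v : V}
    (hv : t v = v) : B v a = 0 ∧ B v w = 0 := by
  have h1 : B v a • w + (B v w + c * B v a) • a = 0 := by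
    simpa [add_assoc, hv] using (h v).symm
  have h2 : B v a = 0 := by
    by_contra h2
    refine hm ((Submodule.smul_mem_iff _ h2).1 ?_)
    rw [eq_neg_of_add_eq_zero_left h1]
    exact neg_mem (Submodule.smul_mem _ _ (Submodule.mem_span_singleton_self a))
  exact ⟨h2, by simpa [h2, ha] using h1⟩

theorem E.orth [FiniteDimensional F V] (C : Ctx B L) (hn : finrank F V = 4) (h : E B t a w c)
    (ha : a ≠ 0) (hw : B w a = 0) (hm : w ∉ Submodule.span F {a}) {v v' : V} (hv : t v = v)
    (hv' : t v' = v') : B v v' = 0 := by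
  obtain ⟨h1, h2⟩ := h.of_fix ha hm hv'
  obtain ⟨α, γ, rfl⟩ := mem_pair C hn ha hm hw h1 h2
  simp [h.of_fix ha hm hv]

end E

variable {K : Type*} [Field K] [Finite K] [CharP K 2] [FiniteDimensional F V]

omit [FiniteDimensional F V] in
theorem not_quadratic (C : Ctx B L) (hn : finrank F V = 4)
    (hc : ∀ f : End F V, (∀ g ∈ L, ∀ v, f (g v) = g (f v)) → ∃ c : F, ∀ v, f v = c • v)
    (e : SL(2, K) ≃* L) :
    ¬ ∀ x, x ≠ 0 → ∀ y v, (e (slU x)).1 v = v → (e (slU y)).1 v = v := fun H => by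
  have hK := CharTwo.two_eq_zero (R := K)
  have hK' := CharTwo.add_self_eq_zero (R := K)
  let ρ : SL(2, K) →* End F V :=
    (LinearEquiv.automorphismGroup.toLinearMapMonoidHom.comp L.subtype).comp e.toMonoidHom
  have hρ : ∀ g v, ρ g v = (e g).1 v := fun _ _ => rfl
  have top : ∀ s : Finset V, s.card < 4 → Submodule.span F (s : Set V) ≠ ⊤ := fun s h1 h => by
    have := finrank_span_finset_le_card (R := F) s
    rw [Set.finrank, h, finrank_top] at this
    omega
  have h2 : ∀ t, ρ (slU t) * ρ (slU t) = 1 := fun t => by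
    rw [← map_mul, ← slU_add, hK', slU_zero, map_one]
  have h2' : ∀ t, ρ (slV t) * ρ (slV t) = 1 := fun t => by
    rw [← map_mul, ← slV_add, hK', slV_zero, map_one]
  have hw : ∀ t : K, slV t = slU 1 * slV 1 * slU 1 * slU t * (slU 1 * slV 1 * slU 1)⁻¹ := fun t => by
    rw [eq_mul_inv_iff_mul_eq]
    ext i j
    fin_cases i <;> fin_cases j <;> simp [Matrix.mul_apply, Fin.sum_univ_two, hK']
  have fix : ∀ t, t ≠ 0 → ∀ v, ρ (slU t) v = v → ρ (slV t⁻¹) v = v → v = 0 := fun t ht v h h' => by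
    have := sl2_eq_top_of_slU_slV ((MulAction.stabilizer _ v).comap
      (L.subtype.comp e.toMonoidHom)) (fun y => H t ht y v h)
      fun y => by
        generalize slU 1 * slV 1 * slU (1 : K) = w at hw
        have h1 : ρ w⁻¹ * ρ w = 1 := by rw [← map_mul, inv_mul_cancel, map_one]
        have h2 : ρ w * ρ w⁻¹ = 1 := by rw [← map_mul, mul_inv_cancel, map_one]
        have h3 := H _ (inv_ne_zero ht) y (ρ w⁻¹ v) (by
          conv_rhs => rw [← h', hw, map_mul, map_mul, ← End.mul_apply, ← mul_assoc, ← mul_assoc, h1,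
            one_mul]
          rfl)
        change ρ (slV y) v = v
        rw [hw, map_mul, map_mul, End.mul_apply, End.mul_apply, hρ (slU y), h3, ← End.mul_apply, h2]
        rfl
    refine Submodule.span_singleton_eq_bot.1 ((C.irr _ fun g hg z hz => ?_).resolve_right
      (by simpa using top {v} (by simp)))
    obtain ⟨s, rfl⟩ := Submodule.mem_span_singleton.1 hz
    have h1 : ρ (e.symm ⟨g, hg⟩) v = v := this.ge (Subgroup.mem_top _)
    rw [hρ, e.apply_symm_apply] at h1
    rw [map_smul, h1]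
    exact hz
  obtain ⟨x, y, β, M, hβ, hf⟩ := CITCor.exists_ringHom hK
    (fun t => (exists_sqrt t).imp fun s h => by rw [← h, pow_two])
    (by rw [← one_add_one_eq_two, vadd_self _ F]) ρ fun t ht => by
      have br : ρ (slV t⁻¹) * ρ (slU t) * ρ (slV t⁻¹) = ρ (slU t) * ρ (slV t⁻¹) * ρ (slU t) := by
        simp only [← map_mul]
        congr 1
        ext i j
        fin_cases i <;> fin_cases j <;> simp [Matrix.mul_apply, Fin.sum_univ_two, ht, hK']
      have hU := fun v => LinearMap.congr_fun (h2 t) v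
      have hV := fun v => LinearMap.congr_fun (h2' t⁻¹) v
      have hb := fun v => LinearMap.congr_fun br v
      have fx := fix t ht
      generalize ρ (slU t) = U at *
      generalize ρ (slV t⁻¹) = W at *
      simp only [End.mul_apply, End.one_apply] at hU hV hb
      have hX : ∀ v, U (W (U v)) = U (W v) + W (U v) + W v + U v + v := fun v => by
        have := fx (U (W (U v)) + (U (W v) + W (U v) + W v + U v + v))
          (by simp only [map_add, hU]; abel)
          (by simp only [map_add, ← hb, hV]; abel)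
        exact eq_of_vadd F this
      ext v
      exact eq_of_vadd F (fx (U (W v) + W (U v) + v)
        (by simp only [map_add, hU, hX]; rw [← one_smul F (U v)]; match_scalars <;> grind)
        (by simp only [map_add, hV, hb, hX]; rw [← one_smul F (U v)]; match_scalars <;> grind))
  have hs : ∀ t, ∃ c : F, ∀ v, β t v = c • v := fun t => hc _ fun g hg v => by
    obtain ⟨g, hg'⟩ := e.surjective ⟨g, hg⟩
    have hx : Commute (β t) x := (hβ t).1.symm
    have hy : Commute (β t) y := (hβ t).2.symm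
    have hb : ∀ s, Commute (β t) (β s) := fun s => (Commute.all t s).map β
    have : Commute (β t) (ρ g) := hf g ▸ ((((hb _).mul_right (hx.mul_right hy)).add_right
      ((hb _).mul_right hx)).add_right ((hb _).mul_right hy)).add_right
        ((hb _).mul_right (hy.mul_right hx))
    simpa [hρ, hg'] using LinearMap.congr_fun this v
  choose c hc using hs
  haveI := Module.nontrivial_of_finrank_pos (R := F) (M := V) (by omega)
  obtain ⟨v, hv⟩ : ∃ v, x v ≠ 0 := by
    by_contra! h
    obtain ⟨v, hv⟩ := exists_ne (0 : V)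
    exact hv (by simpa [h] using (LinearMap.congr_fun M.xy v).symm)
  have xx : x (x v) = 0 := LinearMap.congr_fun M.xx v
  have yy : y (y (x v)) = 0 := LinearMap.congr_fun M.yy _
  have xyx : x (y (x v)) = x v := LinearMap.congr_fun M.xyx v
  classical
  rcases C.irr (Submodule.span F {x v, y (x v)}) (fun g hg z hz => by
    obtain ⟨g, hg'⟩ := e.surjective ⟨g, hg⟩
    obtain ⟨α, γ, rfl⟩ := Submodule.mem_span_pair.1 hz
    refine Submodule.mem_span_pair.2 ⟨α * c (g 0 0) + γ * c (g 0 1), α * c (g 1 0) + γ * c (g 1 1), ?_⟩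
    have := LinearMap.congr_fun (hf g) (α • x v + γ • y (x v))
    rw [hρ, hg'] at this
    rw [this]
    simp [hc, xx, yy, xyx]
    module) with h | h
  · exact hv (Submodule.span_eq_bot.1 h _ (by simp))
  · exact top {x v, y (x v)} (Finset.card_le_two.trans_lt (by omega)) (by simpa using h)

/-- Every involution of `L` is of type `c₂`. -/
def C2 (B : LinearMap.BilinForm F V) (L : Subgroup (V ≃ₗ[F] V)) : Prop :=
  ∀ t ∈ L, t * t = 1 → t ≠ 1 → ∃ a w, a ≠ 0 ∧ B w a = 0 ∧ w ∉ Submodule.span F {a} ∧ E B t a w 1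

theorem l2_case (C : Ctx B L) (hn : finrank F V = 4)
    (hc : ∀ f : End F V, (∀ g ∈ L, ∀ v, f (g v) = g (f v)) → ∃ c : F, ∀ v, f v = c • v)
    (c2 : C2 B L) {Q₁ : QuadraticForm F V} (hp₁ : ∀ u v, polar Q₁ u v = B u v)
    (e : SL(2, K) ≃* L) : ∃ Q : QuadraticForm F V, (∀ u v, polar Q u v = B u v) ∧ L ≤ Orth.O Q := by
  let ρ := L.subtype.comp e.toMonoidHom
  have hρ : ∀ g, ρ g ∈ SpB B := fun g => C.le (e g).2
  have inj : ∀ x y : K, slU x = slU y → x = y := fun x y h => by
    simpa using congrArg (fun g : SL(2, K) => g 0 1) h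
  have hE := fun (x : K) (hx : x ≠ 0) => c2 (ρ (slU x)) (e _).2
    (by rw [← map_mul, ← slU_add, CharTwo.add_self_eq_zero, slU_zero, map_one])
    fun h => hx (inj x 0 (e.injective (Subtype.ext (by rw [slU_zero, map_one]; exact h))))
  choose! a w a0 hw hm hE using hE
  have fixa : ∀ x, x ≠ 0 → ∀ y, ρ (slU y) (a x) = a x := fun x hx y => (hE x hx).fix C (hρ _)
    (by rw [← map_mul, ← map_mul, ← slU_add, ← slU_add, add_comm])
  have one := one_ne_zero' K
  by_contra hQ
  refine not_quadratic C hn hc e fun x hx y v hv => ?_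
  change ρ _ v = v at hv ⊢
  by_cases h : ∀ z, z ≠ 0 → a z ∈ Submodule.span F {a 1}
  swap
  · push Not at h
    obtain ⟨z, hz, h⟩ := h
    have o := fun v v' => (hE x hx).orth C hn (a0 x hx) (hw x hx) (hm x hx) (v := v) (v' := v')
    obtain ⟨α, γ, rfl⟩ := mem_pair C hn (a0 1 one) h (o _ _ (fixa z hz x) (fixa 1 one x))
      (o _ _ hv (fixa 1 one x)) (o _ _ hv (fixa z hz x))
    rw [map_add, map_smul, map_smul, fixa z hz, fixa 1 one]
  have hE' : ∀ z, ∃ w c, B w (a 1) = 0 ∧ E B (ρ (slU z)) (a 1) w c ∧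
      (z ≠ 0 → w ∉ Submodule.span F {a 1}) := fun z => by
    rcases eq_or_ne z 0 with rfl | hz
    · exact ⟨0, 0, by simp, fun v => by simp [slU_zero], fun h => (h rfl).elim⟩
    obtain ⟨s, hs⟩ := Submodule.mem_span_singleton.1 (h z hz)
    have s0 : s ≠ 0 := fun e => a0 z hz (by rw [← hs, e, zero_smul])
    refine ⟨s • w z, _, by simpa [← hs, s0] using hw z hz, (hs ▸ hE z hz).rescale, fun _ hm' => ?_⟩
    refine hm z hz ?_
    rwa [← hs, Submodule.span_singleton_smul_eq s0.isUnit, ← Submodule.smul_mem_iff _ s0]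
  choose w' c hw' hE' hm' using hE'
  obtain ⟨b, hb⟩ := exists_alt_eq_one C.nd (a0 1 one)
  let d : Kˣ →* SL(2, K) := MonoidHom.mk' (fun s => ⟨!![s, 0; 0, s⁻¹], by simp⟩) fun s t =>
    Subtype.ext (by change _ = (_ * _ : Matrix (Fin 2) (Fin 2) K); simp [mul_comm])
  have hd : ∀ s x, ρ (slU ((s : Kˣ) ^ 2 * x)) = ρ (d s) * ρ (slU x) * (ρ (d s))⁻¹ := fun s x => by
    rw [← map_inv, ← map_mul, ← map_mul, conj_slU _ rfl]; rfl
  haveI := Fintype.ofFinite K
  obtain ⟨n, -, hK⟩ := FiniteField.card K 2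
  rw [← Nat.card_eq_fintype_card] at hK
  have ev : Even (Nat.card K) := hK ▸ Nat.even_pow.2 ⟨even_two, n.ne_zero⟩
  have od : Odd (Nat.card K - 1) := Nat.Even.sub_odd Nat.card_pos ev odd_one
  obtain ⟨Q₀, hp, hT, ha⟩ := avg (ρ.comp d) (fun s => hρ _) (S := ⊥)
    (by rwa [Subgroup.index_bot, Nat.card_units])
    (Q := Q₁ + Q₁ (a 1) • linMulLin (B.flip b) (B.flip b)) (fun u v => by
      rw [← hp₁]; simp only [polar, QuadraticMap.add_apply, QuadraticMap.smul_apply, linMulLin_apply,
        map_add, smul_eq_mul]; grind) (by simp)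
  replace ha := ha (a 1) fun s => by
    have h1 := (hE 1 one).conj (hρ (d s))
    rw [← hd] at h1
    obtain ⟨r, hr⟩ := Submodule.mem_span_singleton.1 (h _ (mul_ne_zero (pow_ne_zero 2 s.ne_zero) one))
    rw [(hE _ (mul_ne_zero (pow_ne_zero 2 s.ne_zero) one)).centre C h1] at hr
    rw [MonoidHom.comp_apply, ← hr, QuadraticMap.map_smul]
    simp [hb, CharTwo.add_self_eq_zero]
  rw [C.sym] at hb
  have hq := fun x => (hE' x).quad (hw' x) hp ha
  have hf := fun x => (hE' x).form C
  have hadd : ∀ x y, c (x + y) + Q₀ (w' (x + y)) = c x + Q₀ (w' x) + (c y + Q₀ (w' y)) :=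
    fun x y => by
      have h1 := hq (x + y) b
      rw [slU_add, map_mul, LinearEquiv.mul_apply, hq, hq, ← fixa 1 one y, mem_SpB.1 (hρ _),
        fixa 1 one y, hb] at h1
      linear_combination -h1
  have hh : ∀ x, c x * (c 1 + Q₀ (w' 1)) = c 1 * (c x + Q₀ (w' x)) := fun x => by
    rcases eq_or_ne x 0 with rfl | hx
    · have h1 := hf 0 b
      have h2 := hadd 0 0
      simp only [slU_zero, map_one, LinearEquiv.coe_one, id, C.self, hb, add_zero] at h1 h2
      grind
    obtain ⟨s, rfl⟩ := exists_sqrt x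
    have h0 := hd (Units.mk0 s (fun e => hx (by simp [e]))) 1
    have h1 := hq (s ^ 2) b
    have h2 := hf (s ^ 2) b
    have h3 := fun v => hT (Units.mk0 s (fun e => hx (by simp [e]))) v
    have h4 := mem_SpB.1 (hρ (d (Units.mk0 s (fun e => hx (by simp [e])))))
    rw [mul_one, Units.val_mk0] at h0
    simp only [MonoidHom.comp_apply] at h3
    rw [h0] at h1 h2
    generalize ρ (d _) = g at *
    obtain ⟨b, rfl⟩ := g.surjective b
    simp only [LinearEquiv.mul_apply, LinearEquiv.coe_inv, LinearEquiv.symm_apply_apply, h3, h4, hq,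
      hf, hb] at h1 h2
    grind
  by_cases D : c 1 + Q₀ (w' 1) = 0
  · have c1 : c 1 = 1 := by simpa [hb] using (hf 1 b).symm.trans ((hE 1 one).form C b)
    let φ := MonoidHom.mk' (fun x : Multiplicative K => slU x.toAdd) fun _ _ => slU_add _ _
    let S := φ.range
    have hS : Nat.card S = Nat.card K :=
      (Nat.card_congr (MonoidHom.ofInjective (f := φ) fun x y h => inj _ _ h).toEquiv).symm
    obtain ⟨Q, hp', hQ', -⟩ := avg ρ hρ (S := S) (by
      have := S.card_mul_index
      rw [hS, card_SL2, mul_assoc] at this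
      rw [Nat.eq_of_mul_eq_mul_left Nat.card_pos this]
      exact od.mul ev.add_one) hp (by
        rintro _ ⟨x, rfl⟩ v
        have := hh x.toAdd
        rw [D, c1, mul_zero, one_mul] at this
        exact (hq x.toAdd v).trans (by rw [← this, zero_mul, add_zero]))
    exact (hQ ⟨Q, hp', fun g hg => Orth.mem_O.2 fun v => by simpa [ρ] using hQ' (e.symm ⟨g, hg⟩) v⟩).elim
  · have c1 : c 1 = 1 := by simpa [hb] using (hf 1 b).symm.trans ((hE 1 one).form C b)
    have h1 := ((hE' x).mul C (hE' y) (hw' x) (hw' y)).form C b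
    rw [← map_mul, ← slU_add, hf, hb] at h1
    have h2 : B (w' x) (w' y) = 0 := by
      have := hh x; have := hh y; have := hh (x + y); have := hadd x y
      grind
    obtain ⟨h3, h4⟩ := (hE' x).of_fix (a0 1 one) (hm' x hx) hv
    obtain ⟨α, γ, e⟩ := mem_pair C hn (a0 1 one) (hm' x hx) (hw' x) h3 h4
    have h5 : B v (w' y) = 0 := by simp [e, h2, C.sym (a 1), hw']
    simp [hE' y v, h3, h5]

end Cfsg.Lib.Class.Sp4E
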