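import Cfsg.Agent.Class.Sp4E.Dick
import Cfsg.Agent.Class.Ev.Geom

/-! Transvections of a subgroup of `Sp₄(q)`, `q` even: lines and planes. -/

set_option autoImplicit false

namespace Cfsg.Lib.Class.Sp4E

open Module Ev

variable {F V : Type*} [Field F] [AddCommGroup V] [Module F V] [CharP F 2]
  {B : LinearMap.BilinForm F V} {L : Subgroup (V ≃ₗ[F] V)}

/-- The transvection `z ↦ z + B z a • a` is a non-trivial element of `L`. -/
def T (B : LinearMap.BilinForm F V) (L : Subgroup (V ≃ₗ[F] V)) (a : V) : Prop :=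
  a ≠ 0 ∧ A B L a 0 1

omit [CharP F 2] in
theorem T.exists {a : V} (h : T B L a) : ∃ g ∈ L, ∀ z, g z = z + B z a • a := by
  obtain ⟨g, hg, H⟩ := h.2.2
  exact ⟨g, hg, fun z => by simpa using H z⟩

omit [CharP F 2] in
theorem T.mk' {a : V} (ha : a ≠ 0) {g : V ≃ₗ[F] V} (hg : g ∈ L) (H : ∀ z, g z = z + B z a • a) :
    T B L a := ⟨ha, by simp, g, hg, fun z => by simpa using H z⟩

omit [CharP F 2] in
theorem T.conj (C : Ctx B L) {g : V ≃ₗ[F] V} (hg : g ∈ L) {a : V} (h : T B L a) : T B L (g a) :=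
  ⟨by simpa using h.1, by simpa using h.2.conj C hg⟩

omit [CharP F 2] in
theorem T.cl (C : Ctx B L) {a b : V} (ha : T B L a) (hb : T B L b) : T B L (a + B a b • b) := by
  obtain ⟨g, hg, H⟩ := hb.exists
  exact H a ▸ ha.conj C hg

theorem T.pair (C : Ctx B L) {x r : V} {d : F} (h0 : B x r = 0) (h : T B L x)
    (h' : T B L (x + d • r)) : A B L r (d • x) (d ^ 2) := by
  obtain ⟨g, hg, H⟩ := h.exists
  obtain ⟨g', hg', H'⟩ := h'.exists
  refine ⟨by simp [h0], g * g', mul_mem hg hg', fun z => ?_⟩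
  rw [LinearEquiv.mul_apply, H', H]
  simp only [map_add, map_smul, LinearMap.add_apply, LinearMap.smul_apply, smul_eq_mul, C.self,
    h0, C.sym r x]
  match_scalars <;> grind

omit [CharP F 2] in
theorem T.of_A {r : V} (hr : r ≠ 0) {s : F} (hs : s ≠ 0) (h : A B L r 0 (s ^ 2)) :
    T B L (s • r) :=
  ⟨smul_ne_zero hs hr, by simpa [inv_mul_cancel₀ (pow_ne_zero 2 hs)] using h.to_smul hs⟩

theorem decomp (C : Ctx B L) {a b : V} (hl : B a b ≠ 0) (x : V) :
    ∃ α β : F, ∃ r, x = α • a + β • b + r ∧ B a r = 0 ∧ B b r = 0 := by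
  refine ⟨B x b / B a b, B x a / B a b, x + (B x b / B a b) • a + (B x a / B a b) • b, ?_, ?_, ?_⟩
  · match_scalars <;> grind
  · simp only [map_add, map_smul, smul_eq_mul, C.self, C.sym a x]; field_simp; grind
  · simp only [map_add, map_smul, smul_eq_mul, C.self, C.sym b x, C.sym b a]; field_simp; grind

theorem span_four [FiniteDimensional F V] (C : Ctx B L) (hn : finrank F V = 4) {a b r u : V}
    (hl : B a b ≠ 0) (hr : r ≠ 0) (ha : B a r = 0) (hb : B b r = 0) (hu : B u r = 0) :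
    ∃ α β γ : F, u = α • a + β • b + γ • r := by
  obtain ⟨d, hd⟩ := exists_alt_eq_one C.nd hr
  obtain ⟨_, _, d', rfl, h1, h2⟩ := decomp C hl d
  obtain ⟨α, β, u', rfl, h3, h4⟩ := decomp C hl u
  simp only [map_add, map_smul, LinearMap.add_apply, LinearMap.smul_apply, smul_eq_mul, ha, hb,
    C.sym r a, C.sym r b, mul_zero, zero_add] at hd hu
  refine ⟨α, β, B u' d', ?_⟩
  have := eq_zero_of_four C hn (a := a) (b := (B a b)⁻¹ • b) (x := r) (y := d')
    (w := u' + B u' d' • r) (by simp [C.sym b a, hl]) (by rw [C.sym, ha])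
    (by simp [C.sym r b, hb]) (by rw [C.sym, h1]) (by simp [C.sym d' b, h2]) hd
    (by simp [C.sym _ a, h3, ha]) (by simp [C.sym _ b, h4, hb]) (by simp [hu, C.self])
    (by simp [hd, CharTwo.add_self_eq_zero])
  generalize B u' d' = c at this
  rw [eq_neg_of_add_eq_zero_left this]
  match_scalars <;> grind

variable [Finite F]

theorem plane (C : Ctx B L) {a b r : V} (ha : T B L a) (hb : T B L b) (hl : B a b ≠ 0)
    (har : B a r = 0) (hbr : B b r = 0) :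
    (∀ α β γ : F, (α, β) ≠ (0, 0) → T B L (α • a + β • b + γ • r) →
      α ^ 2 + β ^ 2 + B a b * α * β = 1) ∨
    ∃ F₀ : Subfield F, 3 ≤ Nat.card F₀ ∧ B a b ∈ F₀ ∧ ∀ α β : F, (α, β) ≠ (0, 0) →
      ((∃ γ : F, T B L (α • a + β • b + γ • r)) ↔ α ∈ F₀ ∧ β ∈ F₀) := by
  let S : Set (F × F) := {x | x ≠ (0, 0) ∧ ∃ γ : F, T B L (x.1 • a + x.2 • b + γ • r)}
  rcases dickson_tv hl (S := S) (fun h => h.1 rfl) ⟨by simp, 0, by simpa using ha⟩
    ⟨by simp, 0, by simpa using hb⟩ (by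
      rintro ⟨x1, x2⟩ ⟨hx, γ, h⟩ ⟨y1, y2⟩ ⟨-, δ, h'⟩
      refine ⟨fun e => hx ?_, γ + B a b * (x1 * y2 + x2 * y1) * δ, ?_⟩
      · simp only [Prod.mk.injEq] at e ⊢
        have : B a b * (x1 * y2 + x2 * y1) = 0 := by grind
        rw [this] at e; simpa using e
      · convert h.cl C h' using 1
        simp only [map_add, map_smul, LinearMap.add_apply, LinearMap.smul_apply, smul_eq_mul,
          C.self, har, hbr, C.sym r a, C.sym r b, C.sym b a]
        match_scalars <;> ring) with h | ⟨F₀, h3, hl', h⟩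
  · exact Or.inl fun α β γ h0 hT => h (α, β) ⟨h0, γ, hT⟩
  · exact Or.inr ⟨F₀, h3, hl', fun α β h0 =>
      ⟨fun hT => ((h (α, β)).1 ⟨h0, hT⟩).2, fun hm => ((h (α, β)).2 ⟨h0, hm⟩).2⟩⟩

theorem exists_gen (F₀ : Subfield F) (h : 3 ≤ Nat.card F₀) :
    ∃ θ ∈ F₀, θ ≠ 0 ∧ θ ≠ 1 ∧ ∀ F₁ : Subfield F, θ ∈ F₁ → F₀ ≤ F₁ := by
  obtain ⟨g, hg⟩ := IsCyclic.exists_generator (α := F₀ˣ)
  have hp : ∀ t ∈ F₀, t ≠ 0 → ∃ n : ℤ, ((g : F₀) : F) ^ n = t := fun t ht h0 => by
    obtain ⟨n, hn⟩ := hg (Units.mk0 ⟨t, ht⟩ fun e => h0 (congrArg Subtype.val e))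
    have := congrArg (fun u : F₀ˣ => F₀.subtype (u : F₀)) hn
    simp only [Units.val_zpow_eq_zpow_val, map_zpow₀] at this
    exact ⟨n, this⟩
  refine ⟨(g : F₀), (g : F₀).2, by simp, fun e => ?_, fun F₁ h1 t ht => ?_⟩
  · have : Nat.card F₀ ≤ 2 := by
      rw [← Nat.card_eq_fintype_card (α := Bool) |>.trans Fintype.card_bool]
      classical
      refine Nat.card_le_card_of_injective (fun t : F₀ => decide (t = 0)) fun s t hst => ?_
      by_cases hs : s = 0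
      · simp_all
      · have ht : t ≠ 0 := by simpa [hs] using hst
        obtain ⟨n, hn⟩ := hp s s.2 (by simpa using hs)
        obtain ⟨m, hm⟩ := hp t t.2 (by simpa using ht)
        rw [e, one_zpow] at hn hm
        exact Subtype.ext (hn.symm.trans hm)
    omega
  · rcases eq_or_ne t 0 with rfl | h0
    · exact zero_mem _
    · obtain ⟨n, rfl⟩ := hp t ht h0
      exact zpow_mem h1 n

/-- No point is the centre of two transvections of `L`. -/
def Thin (B : LinearMap.BilinForm F V) (L : Subgroup (V ≃ₗ[F] V)) : Prop :=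
  ∀ a (s : F), T B L a → T B L (s • a) → s = 1

/-- A plane on which the transvections of `L` generate `O₃(F₀)`. -/
structure Big (B : LinearMap.BilinForm F V) (L : Subgroup (V ≃ₗ[F] V)) (F₀ : Subfield F) (r : V) :
    Prop where
  ne : r ≠ 0
  card : 3 ≤ Nat.card F₀
  ex : ∃ a b, T B L a ∧ T B L b ∧ B a r = 0 ∧ B b r = 0 ∧ B a b ≠ 0
  mem : ∀ y y', T B L y → T B L y' → B y r = 0 → B y' r = 0 → B y y' ∈ F₀
  cl : ∀ y y', T B L y → T B L y' → B y r = 0 → B y' r = 0 → B y y' ≠ 0 → ∀ α ∈ F₀, ∀ β ∈ F₀,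
    ∀ γ : F, (α, β) ≠ (0, 0) → α ^ 2 + β ^ 2 + B y y' * α * β + γ ^ 2 = 1 →
      T B L (α • y + β • y' + γ • r)

omit [CharP F 2] [Finite F] in
theorem Big.conj (C : Ctx B L) {F₀ : Subfield F} {r : V} (h : Big B L F₀ r) {g : V ≃ₗ[F] V}
    (hg : g ∈ L) : Big B L F₀ (g r) := by
  have hi : ∀ y, T B L (g y) → T B L y := fun y hy => by simpa using hy.conj C (inv_mem hg)
  obtain ⟨a, b, ha, hb, h1, h2, h3⟩ := h.ex
  refine ⟨by simpa using h.ne, h.card, ⟨g a, g b, ha.conj C hg, hb.conj C hg, ?_, ?_, ?_⟩,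
    fun y y' => ?_, fun y y' => ?_⟩
  · rwa [C.iso hg]
  · rwa [C.iso hg]
  · rwa [C.iso hg]
  · obtain ⟨y, rfl⟩ := g.surjective y
    obtain ⟨y', rfl⟩ := g.surjective y'
    simp only [C.iso hg]
    exact fun hy hy' => h.mem y y' (hi y hy) (hi y' hy')
  · obtain ⟨y, rfl⟩ := g.surjective y
    obtain ⟨y', rfl⟩ := g.surjective y'
    simp only [C.iso hg]
    intro hy hy' e1 e2 e3 α hα β hβ γ h0 e
    simpa using (h.cl y y' (hi y hy) (hi y' hy') e1 e2 e3 α hα β hβ γ h0 e).conj C hg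

section Fibre

variable (C : Ctx B L) (hT : Thin B L) {a b r : V} (hl : B a b ≠ 0) (hr : r ≠ 0)
  (har : B a r = 0) (hbr : B b r = 0) {F₀ : Subfield F} (h3 : 3 ≤ Nat.card F₀) (hm : B a b ∈ F₀)
  (h : ∀ α β : F, (α, β) ≠ (0, 0) → ((∃ γ : F, T B L (α • a + β • b + γ • r)) ↔ α ∈ F₀ ∧ β ∈ F₀))
include C hT hl hr har hbr h3 hm h

theorem fibre_unique {α β γ γ' : F} (h0 : (α, β) ≠ (0, 0)) (h1 : T B L (α • a + β • b + γ • r))
    (h2 : T B L (α • a + β • b + γ' • r)) : γ = γ' := by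
  by_contra hne
  have hd : γ + γ' ≠ 0 := fun e => hne (by grind)
  set d := γ + γ' with hdd
  obtain ⟨hα, hβ⟩ := (h α β h0).1 ⟨γ, h1⟩
  have hA : A B L r (d • (α • a + β • b + γ • r)) (d ^ 2) :=
    h1.pair C (by simp [har, hbr, C.self]) (by convert h2 using 1; match_scalars <;> grind)
  have mv : ∀ α' ∈ F₀, ∀ β' ∈ F₀, α * β' + β * α' ≠ 0 → A B L r (d • (α' • a + β' • b)) (d ^ 2) := by
    intro α' hα' β' hβ' hΔ
    obtain ⟨m, hmm⟩ := exists_sqrt (B a b * (α * β' + β * α'))⁻¹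
    have hmF : m ∈ F₀ := mem_of_sq_mem (hmm ▸ inv_mem (mul_mem hm (add_mem (mul_mem hα hβ')
      (mul_mem hβ hα'))))
    have hm1 : m ^ 2 * (B a b * (α * β' + β * α')) = 1 := by
      rw [hmm, inv_mul_cancel₀ (mul_ne_zero hl hΔ)]
    obtain ⟨δ, hδ⟩ := (h (m * (α + α')) (m * (β + β')) (fun e => by
      simp only [Prod.mk.injEq] at e; grind)).2
      ⟨mul_mem hmF (add_mem hα hα'), mul_mem hmF (add_mem hβ hβ')⟩
    obtain ⟨g, hg, H⟩ := hδ.exists
    have := hA.conj C hg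
    rw [H r, H] at this
    simp only [map_add, map_smul, LinearMap.add_apply, LinearMap.smul_apply, smul_eq_mul,
      C.self, har, hbr, C.sym r a, C.sym r b, C.sym b a, mul_zero, add_zero, zero_smul,
      zero_add] at this
    convert this.shift C (d * (γ + m * δ * (B a b * (α * β' + β * α')))) using 1
    match_scalars <;> grind
  obtain ⟨θ, hθ, θ0, θ1, -⟩ := exists_gen F₀ h3
  obtain ⟨α₁, hα₁, β₁, hβ₁, e₁⟩ : ∃ α₁ ∈ F₀, ∃ β₁ ∈ F₀, B a b * (α * β₁ + β * α₁) = 1 := by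
    by_cases e : α = 0
    · have : β ≠ 0 := fun e' => h0 (by rw [e, e'])
      exact ⟨(B a b * β)⁻¹, inv_mem (mul_mem hm hβ), 0, zero_mem _, by field_simp; simp⟩
    · exact ⟨0, zero_mem _, (B a b * α)⁻¹, inv_mem (mul_mem hm hα), by field_simp; simp⟩
  have key : ∀ k ∈ F₀, k ≠ 0 → A B L r 0 (d ^ 2 * (1 + k)) := fun k hk k0 => by
    have a2 := mv (k * α₁) (mul_mem hk hα₁) (k * β₁) (mul_mem hk hβ₁) (by grind)
    have a3 := mv (α + k * α₁) (add_mem hα (mul_mem hk hα₁)) (β + k * β₁)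
      (add_mem hβ (mul_mem hk hβ₁)) (by grind)
    convert ((hA.add C a2).add C a3).shift C (d * γ) using 1
    · match_scalars <;> grind
    · simp only [map_add, map_smul, LinearMap.add_apply, LinearMap.smul_apply, smul_eq_mul,
        C.self, har, hbr, C.sym r a, C.sym r b, C.sym b a]
      grind
  obtain ⟨s, hs⟩ := exists_sqrt (1 + θ)
  obtain ⟨t, ht⟩ := exists_sqrt θ
  have s0 : s ≠ 0 := fun e => θ1 (by grind)
  have t0 : t ≠ 0 := fun e => θ0 (by grind)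
  have k1 := T.of_A hr (mul_ne_zero hd s0) (by rw [mul_pow, hs]; exact key θ hθ θ0)
  have k2 := T.of_A hr (mul_ne_zero hd t0) (by
    convert key (1 + θ) (add_mem (one_mem _) hθ) (fun e => θ1 (by grind)) using 1; grind)
  have := hT _ (t / s) k1 (by convert k2 using 1; match_scalars; field_simp)
  rw [div_eq_one_iff_eq s0] at this
  grind

theorem exists_norm (ha : T B L a) (hb : T B L b) : ∃ k : F, k ≠ 0 ∧ ∀ α β γ : F,
    (α, β) ≠ (0, 0) → T B L (α • a + β • b + (γ * k) • r) →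
      α ^ 2 + β ^ 2 + B a b * α * β + γ ^ 2 = 1 := by
  obtain ⟨θ, hθ, θ0, θ1, hgen⟩ := exists_gen F₀ h3
  have θ2 : 1 + θ ≠ 0 := fun e => θ1 (by grind)
  obtain ⟨s, hs⟩ := (h θ 0 (by simp [θ0])).2 ⟨hθ, zero_mem _⟩
  have s0 : s ≠ 0 := by
    rintro rfl
    exact θ1 (hT a θ ha (by simpa using hs))
  set k := s / (1 + θ) with hk
  have k0 : k ≠ 0 := div_ne_zero s0 θ2
  let S : Set (F × F) := {x | x ≠ (0, 0) ∧ ∃ γ : F, T B L (x.1 • a + x.2 • b + (γ * k) • r) ∧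
    x.1 ^ 2 + x.2 ^ 2 + B a b * x.1 * x.2 + γ ^ 2 = 1}
  have hθS : (θ, 0) ∈ S := ⟨by simp [θ0], 1 + θ, by rwa [hk, mul_div_cancel₀ _ θ2], by grind⟩
  rcases dickson_tv hl (S := S) (fun h => h.1 rfl) ⟨by simp, 0, by simpa using ha, by simp⟩
    ⟨by simp, 0, by simpa using hb, by simp⟩ (by
      rintro ⟨x1, x2⟩ ⟨hx, γ, h, e1⟩ ⟨y1, y2⟩ ⟨-, δ, h', e2⟩
      refine ⟨fun e => hx ?_, γ + B a b * (x1 * y2 + x2 * y1) * δ, ?_, by grind⟩
      · simp only [Prod.mk.injEq] at e ⊢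
        have : B a b * (x1 * y2 + x2 * y1) = 0 := by grind
        rw [this] at e; simpa using e
      · convert h.cl C h' using 1
        simp only [map_add, map_smul, LinearMap.add_apply, LinearMap.smul_apply, smul_eq_mul,
          C.self, har, hbr, C.sym r a, C.sym r b, C.sym b a]
        match_scalars <;> ring) with h' | ⟨F₁, -, -, h'⟩
  · exact absurd (eq_of_sq_eq (by simpa using h' _ hθS : θ ^ 2 = 1 ^ 2)) θ1
  · have hle := hgen F₁ ((h' _).1 hθS).2.1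
    refine ⟨k, k0, fun α β γ h0 h1 => ?_⟩
    obtain ⟨hα, hβ⟩ := (h α β h0).1 ⟨_, h1⟩
    obtain ⟨-, δ, h2, e⟩ := (h' (α, β)).2 ⟨h0, hle hα, hle hβ⟩
    rwa [mul_right_cancel₀ k0 (fibre_unique C hT hl hr har hbr h3 hm h h0 h1 h2)]

end Fibre

/-- The planes of a thin group. -/
theorem plane_thin [FiniteDimensional F V] (C : Ctx B L) (hn : finrank F V = 4) (hT : Thin B L)
    {a b r : V} (ha : T B L a) (hb : T B L b) (hl : B a b ≠ 0) (hr : r ≠ 0) (har : B a r = 0)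
    (hbr : B b r = 0) :
    (∀ α β γ : F, (α, β) ≠ (0, 0) → T B L (α • a + β • b + γ • r) →
      α ^ 2 + β ^ 2 + B a b * α * β = 1) ∨ ∃ F₀ : Subfield F, ∃ k : F, k ≠ 0 ∧ Big B L F₀ (k • r) := by
  refine (plane C ha hb hl har hbr).imp_right fun ⟨F₀, h3, hm, h⟩ => ?_
  obtain ⟨k, k0, hk⟩ := exists_norm C hT hl hr har hbr h3 hm h ha hb
  have hr' := smul_ne_zero k0 hr
  have har' : B a (k • r) = 0 := by simp [har]
  have hbr' : B b (k • r) = 0 := by simp [hbr]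
  have co : ∀ y, T B L y → B y (k • r) = 0 → ∃ α β γ : F, y = α • a + β • b + γ • k • r ∧
      ((α, β) ≠ (0, 0) → α ∈ F₀ ∧ β ∈ F₀ ∧ α ^ 2 + β ^ 2 + B a b * α * β + γ ^ 2 = 1) :=
    fun y hy h0 => by
      obtain ⟨α, β, γ, rfl⟩ := span_four C hn hl hr' har' hbr' h0
      rw [smul_smul] at hy
      exact ⟨α, β, γ, rfl, fun e => ⟨((h α β e).1 ⟨_, hy⟩).1, ((h α β e).1 ⟨_, hy⟩).2,
        hk α β γ e hy⟩⟩
  have hB : ∀ α β γ α' β' γ' : F, B (α • a + β • b + γ • k • r) (α' • a + β' • b + γ' • k • r) =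
      B a b * (α * β' + β * α') := fun α β γ α' β' γ' => by
    simp only [map_add, map_smul, LinearMap.add_apply, LinearMap.smul_apply, smul_eq_mul,
      C.self, har, hbr, C.sym r a, C.sym r b, C.sym b a]
    ring
  refine ⟨F₀, k, k0, hr', h3, ⟨a, b, ha, hb, har', hbr', hl⟩, fun y y' hy hy' e e' => ?_,
    fun y y' hy hy' e e' hne x hx z hz γ h0 hq => ?_⟩
  · obtain ⟨α, β, γ, rfl, H⟩ := co y hy e
    obtain ⟨α', β', γ', rfl, H'⟩ := co y' hy' e'
    rw [hB]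
    by_cases c : (α, β) = (0, 0)
    · simp only [Prod.mk.injEq] at c; simp [c.1, c.2]
    by_cases c' : (α', β') = (0, 0)
    · simp only [Prod.mk.injEq] at c'; simp [c'.1, c'.2]
    exact mul_mem hm (add_mem (mul_mem (H c).1 (H' c').2.1) (mul_mem (H c).2.1 (H' c').1))
  · obtain ⟨α, β, γ₁, rfl, H⟩ := co y hy e
    obtain ⟨α', β', γ₂, rfl, H'⟩ := co y' hy' e'
    rw [hB] at hne hq
    obtain ⟨a1, a2, a3⟩ := H (fun c => by simp only [Prod.mk.injEq] at c; simp [c.1, c.2] at hne)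
    obtain ⟨b1, b2, b3⟩ := H' (fun c => by simp only [Prod.mk.injEq] at c; simp [c.1, c.2] at hne)
    have h00 : (x * α + z * α', x * β + z * β') ≠ (0, 0) := fun c => h0 (by
      simp only [Prod.mk.injEq] at c ⊢
      have := right_ne_zero_of_mul hne
      exact ⟨mul_left_cancel₀ this (by grind), mul_left_cancel₀ this (by grind)⟩)
    obtain ⟨δ, hδ⟩ := (h _ _ h00).2 ⟨add_mem (mul_mem hx a1) (mul_mem hz b1),
      add_mem (mul_mem hx a2) (mul_mem hz b2)⟩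
    have := hk _ _ (δ / k) h00 (by rwa [div_mul_cancel₀ _ k0])
    have e3 : δ / k = x * γ₁ + z * γ₂ + γ := eq_of_sq_eq (by grind)
    rw [div_eq_iff k0] at e3
    convert hδ using 1
    rw [e3]
    match_scalars <;> ring

end Cfsg.Lib.Class.Sp4E
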