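import Cfsg.Agent.Class.Sp4E.Plane

/-! Irreducible subgroups of `Sp₄(q)`, `q` even, generated by transvections. -/

set_option autoImplicit false

namespace Cfsg.Lib.Class.Sp4E

open Module Ev

variable {F V : Type*} [Field F] [AddCommGroup V] [Module F V] [CharP F 2]
  {B : LinearMap.BilinForm F V} {L : Subgroup (V ≃ₗ[F] V)} [Finite F] [FiniteDimensional F V]

/-- The points of a plane outside its radical. -/
def Off (B : LinearMap.BilinForm F V) (L : Subgroup (V ≃ₗ[F] V)) (r y : V) : Prop :=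
  T B L y ∧ B y r = 0 ∧ ∃ y', T B L y' ∧ B y' r = 0 ∧ B y y' ≠ 0

section Max

variable (C : Ctx B L) (hn : finrank F V = 4) (hT : Thin B L) {F₀ : Subfield F} {r : V}
  (h : Big B L F₀ r) (hmax : ∀ F₁ r₁, Big B L F₁ r₁ → Nat.card F₁ ≤ Nat.card F₀)
include C hn hT h hmax

theorem Big.small {θ : F} (θ0 : θ ≠ 0) (hgen : ∀ F₁ : Subfield F, θ ∈ F₁ → F₀ ≤ F₁) {x y z : V}
    (hx : T B L x) (hxr : B x r ≠ 0) (hy : T B L y) (hz : T B L z) (hyr : B y r = 0)
    (hzr : B z r = 0) (hyz : B y z = θ) (hxy : B x y ∉ F₀) :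
    B x y ^ 2 + B x z ^ 2 + B x y * B x z * θ = θ ^ 2 := by
  obtain ⟨α, β, u, rfl, h1, h2⟩ := decomp C (hyz ▸ θ0) x
  have u0 : u ≠ 0 := by rintro rfl; simp [hyr, hzr] at hxr
  have e1 : B (α • y + β • z + u) y = β * θ := by
    simp [C.self, C.sym z y, hyz, C.sym u y, h1]
  have e2 : B (α • y + β • z + u) z = α * θ := by
    simp [C.self, hyz, C.sym u z, h2]
  rcases plane_thin C hn hT hy hz (hyz ▸ θ0) u0 h1 h2 with H | ⟨F₁, k, -, H⟩
  · have := H α β 1 (fun e => hxy (by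
      simp only [Prod.mk.injEq] at e; rw [e1, e.2, zero_mul]; exact zero_mem _))
      (by rwa [one_smul])
    rw [e1, e2]; grind
  · have hle := hgen F₁ (hyz ▸ H.mem y z hy hz (by simp [h1]) (by simp [h2]))
    have : F₀ = F₁ := SetLike.ext' (Set.eq_of_subset_of_ncard_le hle (hmax _ _ H))
    exact absurd (this ▸ H.mem _ y hx hy (by simp [h1, h2, C.self]) (by simp [h1])) hxy

theorem Big.mem_off {x y : V} (hx : T B L x) (hy : Off B L r y) : B x y ∈ F₀ := by
  by_cases hxr : B x r = 0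
  · exact h.mem x y hx hy.1 hxr hy.2.1
  obtain ⟨θ, hθ, θ0, θ1, hgen⟩ := exists_gen F₀ h.card
  have exb : ∀ y, Off B L r y → ∃ b, T B L b ∧ B b r = 0 ∧ B y b = θ := by
    rintro y ⟨hy, hyr, y', hy', hyr', hne⟩
    refine ⟨_, h.cl y y' hy hy' hyr hyr' hne 0 (zero_mem _) (θ / B y y')
      (div_mem hθ (h.mem y y' hy hy' hyr hyr')) (1 + θ / B y y') (by simp [θ0, hne]) (by grind),
      by simp [hyr', C.self], by simp [hyr, C.self, hne]⟩
  obtain ⟨u, hu⟩ := exists_sqrt (1 + θ)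
  have huF : u ∈ F₀ := mem_of_sq_mem (hu ▸ add_mem (one_mem _) hθ)
  have u0 : u ≠ 0 := fun e => θ1 (by grind)
  have claim : ∀ y, Off B L r y → B x y ∉ F₀ → ∃ e ∈ F₀, B x y = e * B x r := fun y hy hn' => by
    obtain ⟨b, hb, hbr, hyb⟩ := exb y hy
    have hz := h.cl y b hy.1 hb hy.2.1 hbr (hyb ▸ θ0) 1 (one_mem _) 1 (one_mem _) u (by simp)
      (by grind)
    have s1 := h.small C hn hT hmax θ0 hgen hx hxr hy.1 hb hy.2.1 hbr hyb hn'
    have s2 := h.small C hn hT hmax θ0 hgen hx hxr hy.1 hz hy.2.1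
      (by simp [hy.2.1, hbr, C.self]) (by simp [hy.2.1, hyb, C.self]) hn'
    simp only [map_add, map_smul, smul_eq_mul] at s2
    have : (B x y + u * B x r) * (u * B x y + B x r) = 0 := mul_left_cancel₀ u0 (by grind)
    rcases mul_eq_zero.1 this with e | e
    · exact ⟨u, huF, by grind⟩
    · exact ⟨u⁻¹, inv_mem huF, by field_simp; grind⟩
  by_contra hn'
  obtain ⟨b, hb, hbr, hyb⟩ := exb y hy
  obtain ⟨z, hz, hzr, hyz, hxz⟩ : ∃ z, T B L z ∧ B z r = 0 ∧ B y z = θ ∧ B x z ∉ F₀ := by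
    by_cases c : B x b ∈ F₀
    · refine ⟨_, h.cl y b hy.1 hb hy.2.1 hbr (hyb ▸ θ0) θ hθ 1 (one_mem _) 0 (by simp) (by grind),
        by simp [hy.2.1, hbr], by simp [hyb, C.self], fun hm => hn' ?_⟩
      simp only [map_add, map_smul, smul_eq_mul, one_mul, zero_mul, add_zero] at hm
      simpa [θ0] using mul_mem (inv_mem hθ) ((add_mem_cancel_right c).1 hm)
    · exact ⟨b, hb, hbr, hyb, c⟩
  obtain ⟨e, he, e1⟩ := claim y hy hn'
  obtain ⟨e', he', e2⟩ := claim z ⟨hz, hzr, y, hy.1, hy.2.1, by rw [C.sym, hyz]; exact θ0⟩ hxz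
  have s := h.small C hn hT hmax θ0 hgen hx hxr hy.1 hz hy.2.1 hzr hyz hn'
  have hc : e ^ 2 + e' ^ 2 + e * e' * θ ≠ 0 := fun c => θ0 (eq_of_sq_eq (by grind))
  have : B x r ^ 2 = θ ^ 2 / (e ^ 2 + e' ^ 2 + e * e' * θ) := by rw [eq_div_iff hc]; grind
  exact hn' (e1 ▸ mul_mem he (mem_of_sq_mem (this ▸ div_mem (pow_mem hθ 2)
    (add_mem (add_mem (pow_mem he 2) (pow_mem he' 2)) (mul_mem (mul_mem he he') hθ)))))

theorem Big.mem_all {x d : V} (hx : T B L x) (hd : T B L d) : B x d ∈ F₀ := by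
  have key : ∀ x d, T B L x → T B L d → B d r ≠ 0 → B x d ∈ F₀ := fun x d hx hd hdr => by
    obtain ⟨y, hy, hyd⟩ : ∃ y, Off B L r y ∧ B d y ≠ 0 := by
      obtain ⟨a, b, ha, hb, h1, h2, h3⟩ := h.ex
      by_cases c : B d a = 0
      · obtain ⟨θ, hθ, θ0, θ1, -⟩ := exists_gen F₀ h.card
        refine ⟨_, ⟨h.cl a b ha hb h1 h2 h3 θ hθ 0 (zero_mem _) (1 + θ) (by simp [θ0]) (by grind),
          by simp [h1, C.self], b, hb, h2, by simp [C.sym r b, h2, h3, θ0]⟩, ?_⟩
        simpa [c, hdr] using fun e => θ1 (by grind)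
      · exact ⟨a, ⟨ha, h1, b, hb, h2, h3⟩, c⟩
    obtain ⟨g, hg, H⟩ := hd.exists
    obtain ⟨y1, y2, y', y3, y4, y5⟩ := id hy
    have := (h.conj C hg).mem_off C hn hT hmax hx (y := g y)
      ⟨y1.conj C hg, by rwa [C.iso hg], g y', y3.conj C hg, by rwa [C.iso hg], by rwa [C.iso hg]⟩
    rw [H, map_add, map_smul, smul_eq_mul, add_mem_cancel_left (h.mem_off C hn hT hmax hx hy),
      C.sym y d] at this
    simpa [hyd] using mul_mem (inv_mem (h.mem_off C hn hT hmax hd hy)) this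
  by_cases c : B d r = 0
  · by_cases c' : B x r = 0
    · exact h.mem x d hx hd c' c
    · rw [C.sym]; exact key d x hd hx c'
  · exact key x d hx hd c

end Max

omit [FiniteDimensional F V] in
theorem exists_quad_ne {a b c t : F} (hb : b ≠ 0) (t0 : t ≠ 0) (t1 : t ≠ 1) :
    ∃ x : F, a * x ^ 2 + b * x + c ≠ 0 := by
  by_contra! h
  have h0 := h 0
  have h1 := h 1
  have h2 := h t
  have : b * t * (t + 1) = 0 := by grind
  simp only [mul_eq_zero, hb, t0, false_or] at this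
  exact t1 (by grind)

theorem Big.full (C : Ctx B L) (hn : finrank F V = 4) {r : V} (h : Big B L ⊤ r) :
    ∃ p, Full B L p := by
  obtain ⟨a, b, ha, hb, h1, h2, h3⟩ := h.ex
  obtain ⟨θ, -, θ0, θ1, -⟩ := exists_gen ⊤ h.card
  have cl := fun α β => h.cl a b ha hb h1 h2 h3 α trivial β trivial
  have hp : a + r ≠ 0 := fun e => h3 (by simpa [C.sym r b, h2] using congrArg (B · b) e)
  obtain ⟨d, hd, hdr, hdp⟩ : ∃ d, T B L d ∧ B d r ≠ 0 ∧ B d (a + r) = 0 := by
    obtain ⟨d, hd, hdr⟩ := C.exists_ne (T B L) (fun g hg v hv => hv.conj C hg) ha.1 ha h.ne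
    by_cases c : B d (a + r) = 0
    · exact ⟨d, hd, hdr, c⟩
    set β := B d (a + r) / B a b with hβ
    have β0 : β ≠ 0 := div_ne_zero c h3
    obtain ⟨α, hα⟩ := exists_quad_ne (a := 1 + (B d a / B d r) ^ 2) (b := B a b * β)
      (c := β ^ 2 + ((1 + β * B d b) / B d r) ^ 2) (mul_ne_zero h3 β0) θ0 θ1
    obtain ⟨s, hs⟩ := exists_sqrt ((1 + (B d a / B d r) ^ 2) * α ^ 2 + B a b * β * α +
      (β ^ 2 + ((1 + β * B d b) / B d r) ^ 2))
    have s0 : s ≠ 0 := fun e => hα (by rw [← hs, e]; simp)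
    have hy := cl (α / s) (β / s) ((1 + α * B d a + β * B d b) / B d r / s) (by simp [β0, s0]) (by
      field_simp at hs ⊢; grind)
    have e : B d ((α / s) • a + (β / s) • b + ((1 + α * B d a + β * B d b) / B d r / s) • r) =
        s⁻¹ := by
      simp only [map_add, map_smul, smul_eq_mul]; field_simp; grind
    refine ⟨_, hy.cl C hd, ?_, ?_⟩
    · rw [C.sym _ d, e]; simp [h1, h2, C.self, s0, hdr]
    · have e' : B d a + B d r = β * B a b := by rw [hβ, div_mul_cancel₀ _ h3, map_add]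
      rw [C.sym _ d, e]
      simp only [map_add, map_smul, LinearMap.add_apply, LinearMap.smul_apply, smul_eq_mul,
        C.self, h1, h2, C.sym r a, C.sym b a]
      field_simp; grind
  have hA : ∀ t : F, A B L (a + r) (t • r) (t ^ 2) := fun t => by
    rcases eq_or_ne t 0 with rfl | t0
    · simpa using A.zero C (a + r)
    obtain ⟨s, s0, st⟩ : ∃ s : F, s ≠ 0 ∧ s + t ≠ 0 := by
      by_cases c : t = 1
      · exact ⟨θ, θ0, fun e => θ1 (by grind)⟩
      · exact ⟨1, one_ne_zero, fun e => c (by grind)⟩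
    have k1 := cl s 0 (1 + s) (by simp [s0]) (by grind)
    have k2 := cl (s + t) 0 (1 + (s + t)) (by simp [st]) (by grind)
    convert (k1.pair C (r := a + r) (d := t) (by simp [C.self, h1, C.sym r a])
      (by convert k2 using 1; match_scalars <;> ring)).shift C (t * s) using 1
    match_scalars <;> grind
  obtain ⟨g, hg, H⟩ := hd.exists
  refine ⟨a + r, hp, fun u hu => ?_⟩
  obtain ⟨α, β, γ, rfl⟩ := span_four C hn (a := r) (b := d) (by rwa [C.sym]) hp
    (by simp [C.self, C.sym r a, h1]) hdp hu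
  have k := (hA (β / B d r)).conj C hg
  rw [H (a + r), C.sym _ d, hdp, zero_smul, add_zero, map_smul, H, C.sym r d] at k
  refine ⟨_, by
    convert ((hA (α + β / B d r)).add C k).shift C γ using 1
    match_scalars <;> field_simp <;> grind⟩

/-- The transvections of `L` generate an irreducible group. -/
def Gen (B : LinearMap.BilinForm F V) (L : Subgroup (V ≃ₗ[F] V)) : Prop :=
  ∀ W : Submodule F V, (∀ a, T B L a → ∀ w ∈ W, w + B w a • a ∈ W) → W = ⊥ ∨ W = ⊤

omit [Finite F] in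
theorem Gen.exists_off (C : Ctx B L) (hn : finrank F V = 4) (hG : Gen B L) {a b : V}
    (hl : B a b ≠ 0) : ∃ α β : F, ∃ r, T B L (α • a + β • b + r) ∧ (α, β) ≠ (0, 0) ∧ r ≠ 0 ∧
      B a r = 0 ∧ B b r = 0 := by
  by_contra! hc
  rcases hG (Submodule.span F {a, b}) (fun c hT w hw => by
    obtain ⟨α, β, r, rfl, h1, h2⟩ := decomp C hl c
    obtain ⟨x, y, rfl⟩ := Submodule.mem_span_pair.1 hw
    by_cases c0 : (α, β) = (0, 0)
    · simp only [Prod.mk.injEq] at c0
      simpa [c0.1, c0.2, h1, h2] using hw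
    · obtain rfl : r = 0 := by
        by_contra r0
        exact hc α β r hT c0 r0 h1 h2
      exact add_mem hw (Submodule.smul_mem _ _ (Submodule.mem_span_pair.2 ⟨α, β, by simp⟩))) with
    h | h
  · exact hl (by simp [(Submodule.span_eq_bot.1 h) a (by simp)])
  · obtain ⟨u, u0, h1, h2⟩ := C.exists_orth_pair (by omega) a b
    refine u0 (C.nd.2 u fun w => ?_)
    obtain ⟨x, y, rfl⟩ := Submodule.mem_span_pair.1 (h.ge (Submodule.mem_top (x := w)))
    simp [h1, h2]

theorem exists_big (C : Ctx B L) (hn : finrank F V = 4) (hT : Thin B L) (hG : Gen B L) {a b : V}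
    (ha : T B L a) (hb : T B L b) (hl : B a b ≠ 0) (hl1 : B a b ≠ 1) :
    ∃ F₀ r, Big B L F₀ r := by
  by_contra! hc
  have sm : ∀ x y (α β : F) r, T B L x → T B L y → B x y ≠ 0 → B x r = 0 → B y r = 0 →
      (α, β) ≠ (0, 0) → T B L (α • x + β • y + r) → α ^ 2 + β ^ 2 + B x y * α * β = 1 := by
    intro x y α β r hx hy h0 h1 h2 h3 h4
    rcases eq_or_ne r 0 with rfl | r0
    · rcases plane C hx hy h0 h1 h2 with H | ⟨F₀, h5, -, H⟩
      · exact H α β 1 h3 (by rwa [one_smul])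
      · obtain ⟨θ, hθ, θ0, θ1, -⟩ := exists_gen F₀ h5
        obtain ⟨γ, h6⟩ := (H θ 0 (by simp [θ0])).2 ⟨hθ, zero_mem _⟩
        exact absurd (hT x θ hx (by simpa using h6)) θ1
    · rcases plane_thin C hn hT hx hy h0 r0 h1 h2 with H | ⟨F₀, k, -, H⟩
      · exact H α β 1 h3 (by rwa [one_smul])
      · exact absurd H (hc _ _)
  obtain ⟨α, β, r, hc', h0, r0, h1, h2⟩ := hG.exists_off C hn hl
  obtain ⟨x, y, u, hd, h3, h4, h5, hη⟩ : ∃ x y : F, ∃ u, T B L (x • a + y • b + u) ∧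
      (x, y) ≠ (0, 0) ∧ B a u = 0 ∧ B b u = 0 ∧ B u r ≠ 0 := by
    obtain ⟨d, hd, hdr⟩ := C.exists_ne (T B L) (fun g hg v hv => hv.conj C hg) ha.1 ha r0
    obtain ⟨x, y, u, rfl, h4, h5⟩ := decomp C hl d
    have hη : B u r ≠ 0 := by simpa [h1, h2] using hdr
    by_cases c : (x, y) = (0, 0)
    · simp only [Prod.mk.injEq] at c
      refine ⟨B u r * α, B u r * β, u + B u r • r, ?_, fun e => h0 ?_, by simp [h1, h4],
        by simp [h2, h5], by simp [C.self, hη]⟩
      · convert hd.cl C hc' using 1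
        simp only [c.1, c.2, map_add, map_smul, smul_eq_mul, C.sym u a, C.sym u b, h4, h5,
          zero_smul, zero_add]
        match_scalars <;> ring
      · simpa [hη] using e
    · exact ⟨x, y, u, hd, c, h4, h5, hη⟩
  have q0 := sm a b α β r ha hb hl h1 h2 h0 hc'
  have P : ∀ x y : F, T B L (x • a + y • b + u) → (x, y) ≠ (0, 0) →
      B a b * (x * β + y * α) = B u r ∨ x * β + y * α = 0 := fun x y hx hxy => by
    have q1 := sm a b x y u ha hb hl h4 h5 hxy hx
    set m := B a b * (x * β + y * α) + B u r with hm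
    have he : T B L ((x + m * α) • a + (y + m * β) • b + (u + m • r)) := by
      convert hx.cl C hc' using 1
      simp only [map_add, map_smul, LinearMap.add_apply, LinearMap.smul_apply, smul_eq_mul,
        C.sym u a, C.sym u b, h1, h2, h4, h5, C.self, C.sym b a]
      match_scalars <;> grind
    by_cases c : (x + m * α, y + m * β) = (0, 0)
    · simp only [Prod.mk.injEq] at c
      exact Or.inr (by grind)
    · have q2 := sm a b _ _ _ ha hb hl (by simp [h1, h4]) (by simp [h2, h5]) c he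
      exact Or.inl (mul_right_cancel₀ hη (by grind))
  let O : F → F → Prop := fun x y => T B L (x • a + y • b + u) ∧ (x, y) ≠ (0, 0)
  have ta : ∀ x y, O x y → O (x + B a b * y) y := fun x y h => ⟨by
    convert h.1.cl C ha using 1
    simp only [map_add, map_smul, LinearMap.add_apply, LinearMap.smul_apply, smul_eq_mul,
      C.sym u a, h4, C.self, C.sym b a]
    match_scalars <;> ring, fun e => h.2 (by simp only [Prod.mk.injEq] at e ⊢; grind)⟩
  have tb : ∀ x y, O x y → O x (y + B a b * x) := fun x y h => ⟨by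
    convert h.1.cl C hb using 1
    simp only [map_add, map_smul, LinearMap.add_apply, LinearMap.smul_apply, smul_eq_mul,
      C.sym u b, h5, C.self]
    match_scalars <;> ring, fun e => h.2 (by simp only [Prod.mk.injEq] at e ⊢; grind)⟩
  have Z : ∀ x y, O x y → x * β + y * α = 0 := fun x y h => by
    refine (P x y h.1 h.2).resolve_left fun e => ?_
    have k1 := ta _ _ (tb _ _ h)
    have k2 := tb _ _ (ta _ _ h)
    have l1 : B a b + 1 ≠ 0 := fun e => hl1 (by grind)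
    have : B a b ^ 2 * (B a b + 1) ^ 2 * B u r ≠ 0 := by simp [hl, l1, hη]
    rcases P _ _ k1.1 k1.2 with e1 | e1 <;> rcases P _ _ k2.1 k2.2 with e2 | e2 <;>
      exact this (by grind)
  have z0 := Z x y ⟨hd, h3⟩
  have z1 := Z _ _ (ta x y ⟨hd, h3⟩)
  have z2 := Z _ _ (tb x y ⟨hd, h3⟩)
  have q1 := sm a b x y u ha hb hl h4 h5 h3 hd
  have w1 : y * β = 0 := mul_left_cancel₀ hl (by grind)
  have w2 : x * α = 0 := mul_left_cancel₀ hl (by grind)
  grind

theorem not_thin (C : Ctx B L) (hn : finrank F V = 4) (hG : Gen B L) {a : V} {s : F}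
    (ha : T B L a) (hs : T B L (s • a)) (s1 : s ≠ 1) :
    (∃ F₀ : Subfield F, F₀ ≠ ⊤ ∧ ∀ x y, T B L x → T B L y → B x y ∈ F₀) ∨ ∃ p, Full B L p := by
  have line : ∀ a b (s : F), T B L a → T B L b → B a b ≠ 0 → T B L (s • a) → s ≠ 1 →
      ∃ F₀ : Subfield F, B a b ∈ F₀ ∧ ∀ α β : F, (α, β) ≠ (0, 0) →
        (T B L (α • a + β • b) ↔ α ∈ F₀ ∧ β ∈ F₀) := fun a b s ha hb hl hs s1 => by
    rcases plane C ha hb hl (r := 0) (by simp) (by simp) with H | ⟨F₀, -, h1, H⟩
    · have s0 : s ≠ 0 := fun e => hs.1 (by simp [e])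
      exact absurd (eq_of_sq_eq (by simpa using H s 0 0 (by simp [s0]) (by simpa using hs) :
        s ^ 2 = 1 ^ 2)) s1
    · exact ⟨F₀, h1, fun α β h0 => by simpa using H α β h0⟩
  have s0 : s ≠ 0 := fun e => hs.1 (by simp [e])
  obtain ⟨b, hb, hl⟩ := C.exists_ne (T B L) (fun g hg v hv => hv.conj C hg) ha.1 ha ha.1
  rw [C.sym] at hl
  obtain ⟨F₀, -, H⟩ := line a b s ha hb hl hs s1
  let P : V → Prop := fun y => T B L y ∧ ∀ t : F, t ≠ 0 → (T B L (t • y) ↔ t ∈ F₀)
  have hsF : s ∈ F₀ := ((H s 0 (by simp [s0])).1 (by simpa using hs)).1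
  have step : ∀ x y, P x → T B L y → B x y ≠ 0 → P y ∧ B x y ∈ F₀ := fun x y hx hy h0 => by
    obtain ⟨F₁, h1, H'⟩ := line x y s hx.1 hy h0 ((hx.2 s s0).2 hsF) s1
    obtain rfl : F₁ = F₀ := SetLike.ext fun t => by
      rcases eq_or_ne t 0 with rfl | t0
      · simp
      · simpa [hx.2 t t0] using (H' t 0 (by simp [t0])).symm
    exact ⟨⟨hy, fun t t0 => by simpa using H' 0 t (by simp [t0])⟩, h1⟩
  have all : ∀ y, T B L y → P y := fun y hy => by
    obtain ⟨x, hx, h0⟩ := C.exists_ne P (fun g hg v hv => ⟨hv.1.conj C hg, fun t t0 => by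
      rw [← hv.2 t t0, ← map_smul]
      exact ⟨fun h => by simpa using h.conj C (inv_mem hg), fun h => h.conj C hg⟩⟩) ha.1
      ⟨ha, fun t t0 => by simpa using H t 0 (by simp [t0])⟩ hy.1
    exact (step x y hx hy h0).1
  by_cases hF : F₀ = ⊤
  swap
  · refine Or.inl ⟨F₀, hF, fun x y hx hy => ?_⟩
    by_cases h0 : B x y = 0
    · exact h0 ▸ zero_mem _
    · exact (step x y (all x hx) hy h0).2
  subst hF
  have add : ∀ x y (t : F), T B L x → T B L y → B x y ≠ 0 → T B L (x + t • y) :=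
    fun x y t hx hy h0 => by
      rcases eq_or_ne t 0 with rfl | t0
      · simpa using hx
      obtain ⟨m, hm⟩ := exists_sqrt (t / B x y)
      have m0 : m ≠ 0 := fun e => div_ne_zero t0 h0 (by rw [← hm, e]; simp)
      convert hx.cl C (((all y hy).2 m m0).2 trivial) using 1
      rw [map_smul, smul_smul, smul_eq_mul, ← div_mul_cancel₀ t h0, ← hm]
      congr 2; ring
  obtain ⟨α, β, r, hc, h0, r0, h1, h2⟩ := hG.exists_off C hn hl
  have st : ∀ α β x y t : F, T B L (α • a + β • b + r) → x * β + y * α ≠ 0 →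
      T B L (x • a + y • b + t • r) := fun α β x y t hc h => by
    convert add _ _ t ((H (x + t * α) (y + t * β) (fun e => h (by
      simp only [Prod.mk.injEq] at e; grind))).2 ⟨trivial, trivial⟩) hc (by
        simp only [map_add, map_smul, LinearMap.add_apply, LinearMap.smul_apply, smul_eq_mul,
          h1, h2, C.self, C.sym b a]
        exact fun e => mul_ne_zero hl h (by grind)) using 1
    match_scalars <;> grind
  have al : ∀ x y t : F, (x, y) ≠ (0, 0) → T B L (x • a + y • b + t • r) := fun x y t h => by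
    by_cases c : x * β + y * α = 0
    · simp only [Ne, Prod.mk.injEq, not_and_or] at h h0
      by_cases c' : α = 0
      · exact st 1 0 x y t (by simpa using st α β 1 0 1 hc (by grind)) (by grind)
      · exact st 0 1 x y t (by simpa using st α β 0 1 1 hc (by grind)) (by grind)
    · exact st α β x y t hc c
  refine Or.inr ⟨r, r0, fun u hu => ?_⟩
  obtain ⟨x, y, t, rfl⟩ := span_four C hn hl r0 h1 h2 hu
  by_cases c : (x, y) = (0, 0)
  · simp only [Prod.mk.injEq] at c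
    exact ⟨0, by simpa [c.1, c.2] using A.self C r t⟩
  · exact ⟨_, by
      simpa using (al x y t c).pair C hu (d := 1) (by
        convert al x y (t + 1) c using 1; match_scalars <;> ring)⟩

/-- The subfield of elements fixed by the `n`-th power of the Frobenius map. -/
def fixF (F : Type*) [Field F] [CharP F 2] (n : ℕ) : Subfield F :=
  RingHom.eqLocusField (iterateFrobenius F 2 n) (RingHom.id F)

omit [Finite F] in
theorem mem_fixF {n : ℕ} {x : F} : x ∈ fixF F n ↔ x ^ 2 ^ n = x := Iff.rfl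

omit [Finite F] in
theorem fixF_one_ne_top {t : F} (t0 : t ≠ 0) (t1 : t ≠ 1) : fixF F 1 ≠ ⊤ := fun h => by
  have : t ^ 2 ^ 1 = t := mem_fixF.1 (h ▸ trivial)
  exact t1 (mul_left_cancel₀ t0 (by grind))

/-- Irreducible subgroups of `Sp₄(q)`, `q > 2` even, generated by transvections. -/
theorem tv_cases (C : Ctx B L) (hn : finrank F V = 4) (hG : Gen B L) {t : F} (t0 : t ≠ 0)
    (t1 : t ≠ 1) : (∃ F₀ : Subfield F, F₀ ≠ ⊤ ∧ ∀ x y, T B L x → T B L y → B x y ∈ F₀) ∨
      SpB B ≤ L ∨ ∃ Q : QuadraticForm F V, (∀ u v, QuadraticMap.polar Q u v = B u v) ∧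
        L ≤ Orth.O Q := by
  have fin : (∃ p, Full B L p) → SpB B ≤ L ∨ ∃ Q : QuadraticForm F V,
      (∀ u v, QuadraticMap.polar Q u v = B u v) ∧ L ≤ Orth.O Q := fun ⟨p, hp⟩ => by
    rcases hp.cases C exists_sqrt hn.ge with h | ⟨Q, h1, h2, -⟩ | ⟨h, -⟩
    · exact Or.inl h
    · exact Or.inr ⟨Q, h1, h2⟩
    · exact ((h t).elim t0 t1).elim
  by_cases hT : Thin B L
  swap
  · simp only [Thin, not_forall] at hT
    obtain ⟨a, s, ha, hs, s1⟩ := hT
    exact (not_thin C hn hG ha hs s1).imp_right fin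
  by_cases h : ∀ x y, T B L x → T B L y → B x y = 0 ∨ B x y = 1
  · exact Or.inl ⟨_, fixF_one_ne_top t0 t1, fun x y hx hy => mem_fixF.2 (by
      rcases h x y hx hy with e | e <;> simp [e])⟩
  push Not at h
  obtain ⟨a, b, ha, hb, h0, h1⟩ := h
  obtain ⟨F₁, r₁, hb⟩ := exists_big C hn hT hG ha hb h0 h1
  obtain ⟨F₀, ⟨r, hr⟩, hmax⟩ := Set.exists_max_image {F₀ : Subfield F | ∃ r, Big B L F₀ r}
    (fun F₀ => Nat.card F₀) (Set.toFinite _) ⟨F₁, r₁, hb⟩
  by_cases hF : F₀ = ⊤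
  · subst hF
    exact Or.inr (fin (hr.full C hn))
  · exact Or.inl ⟨F₀, hF, fun x y => hr.mem_all C hn hT fun F₁ r₁ h => hmax F₁ ⟨r₁, h⟩⟩

end Cfsg.Lib.Class.Sp4E
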